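import Mathlib

set_option autoImplicit false

namespace Cfsg.Agent.Lib.Helper81

open Polynomial

section FitPoly

variable {R : Type*} [CommRing R]

theorem prod_X_sub_C_sub_pow_coeff_mem (I : Ideal R) (s : Multiset R) (hs : ∀ α ∈ s, α ∈ I) :
    (s.map fun α => (X - C α : R[X])).prod - X ^ (Multiset.card s) ∈ I.map (C : R →+* R[X]) := by
  induction s using Multiset.induction_on with
  | empty => simp
  | cons α s ih =>
    have h1 := ih (fun β hβ => hs β (Multiset.mem_cons_of_mem hβ))
    have hα : (C α : R[X]) ∈ I.map (C : R →+* R[X]) :=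
      Ideal.mem_map_of_mem _ (hs α (Multiset.mem_cons_self α s))
    rw [Multiset.map_cons, Multiset.prod_cons, Multiset.card_cons]
    have : (X - C α) * (s.map fun α => (X - C α : R[X])).prod - X ^ (Multiset.card s + 1)
        = (X - C α) * ((s.map fun α => (X - C α : R[X])).prod - X ^ (Multiset.card s))
          - C α * X ^ (Multiset.card s) := by ring
    rw [this]
    exact Ideal.sub_mem _ (Ideal.mul_mem_left _ _ h1) (Ideal.mul_mem_right _ _ hα)

theorem isCoprime_prods (I : Ideal R) (hI : ∀ r : R, r ∈ I ∨ IsUnit r)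
    (s t : Multiset R) (hs : ∀ α ∈ s, α ∈ I) (ht : ∀ α ∈ t, α ∉ I) :
    IsCoprime (s.map fun α => (X - C α : R[X])).prod (t.map fun α => (X - C α : R[X])).prod := by
  have key : ∀ α ∈ s, ∀ β ∈ t, IsCoprime (X - C α : R[X]) (X - C β) := by
    intro α hα β hβ
    have hu : IsUnit (β - α) := by
      rcases hI (β - α) with h | h
      · exfalso; apply ht β hβ
        have := I.add_mem h (hs α hα)
        simpa using this
      · exact h
    obtain ⟨u, hu⟩ := hu
    refine ⟨C (↑u⁻¹ : R), -C (↑u⁻¹ : R), ?_⟩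
    have : C (↑u⁻¹ : R) * (X - C α) + -C (↑u⁻¹ : R) * (X - C β) = C ((↑u⁻¹ : R) * (β - α)) := by
      rw [C_mul, C_sub]; ring
    rw [this, ← hu, Units.inv_mul, C_1]
  induction s using Multiset.induction_on with
  | empty => simpa using isCoprime_one_left
  | cons α s ih =>
    rw [Multiset.map_cons, Multiset.prod_cons]
    apply IsCoprime.mul_left
    · clear ih
      induction t using Multiset.induction_on with
      | empty => simpa using isCoprime_one_right
      | cons β t iht =>
        rw [Multiset.map_cons, Multiset.prod_cons]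
        apply IsCoprime.mul_right
        · exact key α (Multiset.mem_cons_self α s) β (Multiset.mem_cons_self β t)
        · apply iht (fun γ hγ => ht γ (Multiset.mem_cons_of_mem hγ))
          intro α' hα' β' hβ'
          exact key α' hα' β' (Multiset.mem_cons_of_mem hβ')
    · exact ih (fun γ hγ => hs γ (Multiset.mem_cons_of_mem hγ))
        (fun α' hα' β' hβ' => key α' (Multiset.mem_cons_of_mem hα') β' hβ')

theorem isUnit_prod_coeff_zero (I : Ideal R) (hI : ∀ r : R, r ∈ I ∨ IsUnit r)
    (t : Multiset R) (ht : ∀ α ∈ t, α ∉ I) :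
    IsUnit ((t.map fun α => (X - C α : R[X])).prod.coeff 0) := by
  induction t using Multiset.induction_on with
  | empty => simp
  | cons β t ih =>
    rw [Multiset.map_cons, Multiset.prod_cons, mul_coeff_zero]
    apply IsUnit.mul
    · have : (X - C β : R[X]).coeff 0 = -β := by simp
      rw [this]
      exact ((hI β).resolve_left (ht β (Multiset.mem_cons_self β t))).neg
    · exact ih (fun γ hγ => ht γ (Multiset.mem_cons_of_mem hγ))

/-- Fitting decomposition inside `R[a]`, for an element killed by a split monic polynomial over a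
local ring. -/
theorem fitting_poly {A : Type*} [Ring A] [Algebra R A] (I : Ideal R)
    (hI : ∀ r : R, r ∈ I ∨ IsUnit r) (a : A) (s : Multiset R)
    (hs : aeval a (s.map fun α => (X - C α : R[X])).prod = 0) :
    ∃ (u c w : R[X]) (n : ℕ), aeval a u * aeval a u = aeval a u ∧
      a * aeval a c * aeval a u = aeval a u ∧
      a ^ n * (1 - aeval a u) = aeval a w ∧ w ∈ I.map (C : R →+* R[X]) := by
  classical
  set sI := s.filter (fun α => α ∈ I) with hsI
  set sU := s.filter (fun α => ¬ α ∈ I) with hsU
  set g := (sI.map fun α => (X - C α : R[X])).prod with hg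
  set h := (sU.map fun α => (X - C α : R[X])).prod with hh
  have hgh : g * h = (s.map fun α => (X - C α : R[X])).prod := by
    rw [hg, hh, ← Multiset.prod_add, ← Multiset.map_add, hsI, hsU, Multiset.filter_add_not]
  have hgh0 : aeval a (g * h) = 0 := by rw [hgh]; exact hs
  obtain ⟨u0, v0, huv⟩ := isCoprime_prods I hI sI sU
    (fun α hα => (Multiset.mem_filter.1 hα).2) (fun α hα => (Multiset.mem_filter.1 hα).2)
  rw [← hg, ← hh] at huv
  have hunit := isUnit_prod_coeff_zero I hI sU (fun α hα => (Multiset.mem_filter.1 hα).2)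
  rw [← hh] at hunit
  obtain ⟨r, hr⟩ := hunit
  have hgI := prod_X_sub_C_sub_pow_coeff_mem I sI (fun α hα => (Multiset.mem_filter.1 hα).2)
  rw [← hg] at hgI
  refine ⟨u0 * g, -C (↑r⁻¹ : R) * h.divX, (X ^ (Multiset.card sI) - g) * (v0 * h),
    Multiset.card sI, ?_, ?_, ?_, ?_⟩
  · rw [← map_mul]
    have : u0 * g * (u0 * g) = u0 * g - u0 * v0 * (g * h) := by
      have h1 : u0 * g = 1 - v0 * h := by rw [← huv]; ring
      calc u0 * g * (u0 * g) = u0 * g * (1 - v0 * h) := by rw [← h1]
        _ = u0 * g - u0 * v0 * (g * h) := by ring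
    rw [this, map_sub, map_mul _ (u0 * v0), hgh0, mul_zero, sub_zero]
  · have ha : a = aeval a (X : R[X]) := (aeval_X a).symm
    conv_lhs => rw [ha]
    simp only [aeval_X]
    have h2 : (X : R[X]) * (-C (↑r⁻¹ : R) * h.divX) * (u0 * g)
        = u0 * g - C (↑r⁻¹ : R) * u0 * (g * h) := by
      have h3 : h = h.divX * X + C (h.coeff 0) := (divX_mul_X_add h).symm
      have h4 : C (↑r⁻¹ : R) * C (h.coeff 0) = 1 := by
        rw [← C_mul, ← hr, Units.inv_mul, C_1]
      have h5 : X * h.divX = h - C (h.coeff 0) := by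
        conv_rhs => rw [h3]
        simp only [coeff_add, mul_coeff_zero, coeff_X_zero, mul_zero, coeff_C_zero, zero_add]
        ring
      calc (X : R[X]) * (-C (↑r⁻¹ : R) * h.divX) * (u0 * g)
          = -C (↑r⁻¹ : R) * (X * h.divX) * (u0 * g) := by ring
        _ = -C (↑r⁻¹ : R) * (h - C (h.coeff 0)) * (u0 * g) := by rw [h5]
        _ = (C (↑r⁻¹ : R) * C (h.coeff 0)) * (u0 * g) - C (↑r⁻¹ : R) * u0 * (g * h) := by ring
        _ = u0 * g - C (↑r⁻¹ : R) * u0 * (g * h) := by rw [h4, one_mul]
    have h6 : a * aeval a (-C (↑r⁻¹ : R) * h.divX) * aeval a (u0 * g)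
        = aeval a ((X : R[X]) * (-C (↑r⁻¹ : R) * h.divX) * (u0 * g)) := by
      rw [map_mul (aeval a) (X * _) (u0 * g), map_mul (aeval a) X, aeval_X]
    rw [h6, h2, map_sub, map_mul _ (C (↑r⁻¹ : R) * u0), hgh0, mul_zero, sub_zero]
  · have h7 : a ^ (Multiset.card sI) * (1 - aeval a (u0 * g))
        = aeval a ((X : R[X]) ^ (Multiset.card sI) * (1 - u0 * g)) := by
      rw [map_mul (aeval a) (X ^ _) (1 - u0 * g), map_pow, aeval_X, map_sub, map_one]
    have h8 : (X : R[X]) ^ (Multiset.card sI) * (1 - u0 * g)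
        = (X ^ (Multiset.card sI) - g) * (v0 * h) + v0 * (g * h) := by
      have h1 : 1 - u0 * g = v0 * h := by rw [← huv]; ring
      rw [h1]; ring
    rw [h7, h8, map_add, map_mul _ v0, hgh0, mul_zero, add_zero]
  · apply Ideal.mul_mem_right
    have := Ideal.neg_mem_iff (I.map (C : R →+* R[X])) |>.2 hgI
    simpa using this

end FitPoly

end Cfsg.Agent.Lib.Helper81
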