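import Mathlib

set_option autoImplicit false

namespace Cfsg.Agent.Lib.Helper81

/-- Abstract data for "a finite algebra over a henselian local ring": a subring `S`, an ideal-like
predicate `sm` ("small") and Fitting decompositions. -/
structure LD (A : Type*) [Ring A] where
  S : Subring A
  sm : A → Prop
  sm_zero : sm 0
  sm_add : ∀ {a b : A}, sm a → sm b → sm (a + b)
  sm_neg : ∀ {a : A}, sm a → sm (-a)
  sm_mul_left : ∀ {a b : A}, b ∈ S → sm a → sm (b * a)
  sm_mul_right : ∀ {a b : A}, b ∈ S → sm a → sm (a * b)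
  sm_idem : ∀ {e : A}, e * e = e → sm e → e = 0
  fit : ∀ a ∈ S, ∃ ε ∈ S, ∃ c ∈ S, ∃ n : ℕ, ε * ε = ε ∧ a * ε = ε * a ∧ a * c = c * a ∧
    c * ε = ε * c ∧ a * c * ε = ε ∧ sm (a ^ n * (1 - ε))

namespace LD

variable {A : Type*} [Ring A] (D : LD A)

theorem sm_sub {a b : A} (ha : D.sm a) (hb : D.sm b) : D.sm (a - b) := by
  rw [sub_eq_add_neg]; exact D.sm_add ha (D.sm_neg hb)

/-- the corner `j S j` -/
def Cor (j a : A) : Prop := a ∈ D.S ∧ j * a = a ∧ a * j = a

/-- primitive idempotent of `S` -/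
def Prim (j : A) : Prop :=
  j ∈ D.S ∧ j * j = j ∧ j ≠ 0 ∧ ∀ e, D.Cor j e → e * e = e → e = 0 ∨ e = j

/-- unit of the corner -/
def CU (j a : A) : Prop := D.Cor j a ∧ ∃ b, D.Cor j b ∧ a * b = j ∧ b * a = j

variable {D}

theorem Cor.add {j a b : A} (ha : D.Cor j a) (hb : D.Cor j b) : D.Cor j (a + b) :=
  ⟨D.S.add_mem ha.1 hb.1, by rw [mul_add, ha.2.1, hb.2.1], by rw [add_mul, ha.2.2, hb.2.2]⟩

theorem Cor.sub {j a b : A} (ha : D.Cor j a) (hb : D.Cor j b) : D.Cor j (a - b) :=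
  ⟨D.S.sub_mem ha.1 hb.1, by rw [mul_sub, ha.2.1, hb.2.1], by rw [sub_mul, ha.2.2, hb.2.2]⟩

theorem Cor.mul {j a b : A} (ha : D.Cor j a) (hb : D.Cor j b) : D.Cor j (a * b) :=
  ⟨D.S.mul_mem ha.1 hb.1, by rw [← mul_assoc, ha.2.1], by rw [mul_assoc, hb.2.2]⟩

theorem Cor.zero (j : A) : D.Cor j 0 := ⟨D.S.zero_mem, mul_zero _, zero_mul _⟩

theorem Cor.self {j : A} (hj : j ∈ D.S) (hjj : j * j = j) : D.Cor j j := ⟨hj, hjj, hjj⟩

theorem Cor.sandwich {j a : A} (hj : j ∈ D.S) (hjj : j * j = j) (ha : a ∈ D.S) :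
    D.Cor j (j * a * j) :=
  ⟨D.S.mul_mem (D.S.mul_mem hj ha) hj, by rw [← mul_assoc, ← mul_assoc, hjj],
    by rw [mul_assoc, hjj]⟩

theorem Cor.sum {j : A} {ι : Type*} (s : Finset ι) (f : ι → A) (h : ∀ i ∈ s, D.Cor j (f i)) :
    D.Cor j (∑ i ∈ s, f i) := by
  classical
  induction s using Finset.induction_on with
  | empty => simpa using Cor.zero j
  | insert a s ha ih =>
    rw [Finset.sum_insert ha]
    exact (h a (Finset.mem_insert_self a s)).add
      (ih (fun i hi => h i (Finset.mem_insert_of_mem hi)))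

theorem Cor.pow_succ {j a : A} (ha : D.Cor j a) (n : ℕ) : D.Cor j (a ^ (n + 1)) := by
  induction n with
  | zero => simpa using ha
  | succ n ih => rw [_root_.pow_succ]; exact ih.mul ha

theorem Prim.cor {j : A} (h : D.Prim j) : D.Cor j j := Cor.self h.1 h.2.1

theorem CU.self {j : A} (h : D.Prim j) : D.CU j j := ⟨h.cor, j, h.cor, h.2.1, h.2.1⟩

theorem CU.mul {j a b : A} (ha : D.CU j a) (hb : D.CU j b) :
    D.CU j (a * b) := by
  obtain ⟨hac, a', ha', h1, h2⟩ := ha
  obtain ⟨hbc, b', hb', h3, h4⟩ := hb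
  refine ⟨hac.mul hbc, b' * a', hb'.mul ha', ?_, ?_⟩
  · calc a * b * (b' * a') = a * (b * b') * a' := by noncomm_ring
      _ = j := by rw [h3, hac.2.2, h1]
  · calc b' * a' * (a * b) = b' * (a' * a) * b := by noncomm_ring
      _ = j := by rw [h2, hb'.2.2, h4]

theorem inv_unique {j b l r : A} (hl : D.Cor j l) (hr : D.Cor j r) (h1 : b * r = j)
    (h2 : l * b = j) : l = r := by
  calc l = l * j := hl.2.2.symm
    _ = l * (b * r) := by rw [h1]
    _ = (l * b) * r := by rw [mul_assoc]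
    _ = r := by rw [h2, hr.2.1]

/-- in the corner of a primitive idempotent every element is a unit or has a small power -/
theorem Prim.unit_or_small {j a : A} (h : D.Prim j) (ha : D.Cor j a) :
    D.CU j a ∨ ∃ n : ℕ, D.sm (a ^ (n + 1)) := by
  obtain ⟨ε, hε, c, hc, n, h1, h2, h3, h4, h5, h6⟩ := D.fit a ha.1
  have hεl : j * ε = ε := by
    rw [← h5, ← mul_assoc, ← mul_assoc, ha.2.1]
  have h5' : c * ε * a = ε := by
    calc c * ε * a = c * (ε * a) := by rw [mul_assoc]
      _ = c * (a * ε) := by rw [h2]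
      _ = (c * a) * ε := by rw [mul_assoc]
      _ = ε := by rw [← h3, h5]
  have hεr : ε * j = ε := by
    rw [← h5', mul_assoc, ha.2.2]
  rcases h.2.2.2 ε ⟨hε, hεl, hεr⟩ h1 with h0 | h0
  · right
    refine ⟨n, ?_⟩
    rw [h0, sub_zero, mul_one] at h6
    rw [pow_succ]
    exact D.sm_mul_right ha.1 h6
  · left
    subst h0
    refine ⟨ha, c * ε, ⟨D.S.mul_mem hc hε, ?_, ?_⟩, ?_, h5'⟩
    · rw [h4, ← mul_assoc, h1]
    · rw [mul_assoc, h1]
    · rw [← mul_assoc, h5]

theorem pow_mul_pow_eq {j a b : A} (hab : a * b = j) (ha : D.Cor j a) (n : ℕ) :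
    a ^ (n + 1) * b ^ (n + 1) = j := by
  induction n with
  | zero => simpa using hab
  | succ n ih =>
    calc a ^ (n + 1 + 1) * b ^ (n + 1 + 1) = a ^ (n + 1) * (a * b) * b ^ (n + 1) := by
          rw [pow_succ a (n + 1), pow_succ' b (n + 1)]; noncomm_ring
      _ = j := by rw [hab, (ha.pow_succ n).2.2, ih]

theorem Prim.not_small_of_unit {j a : A} (h : D.Prim j) (hu : D.CU j a) (n : ℕ) :
    ¬ D.sm (a ^ (n + 1)) := by
  intro hs
  obtain ⟨ha, b, hb, h1, -⟩ := hu
  have h2 := pow_mul_pow_eq h1 ha n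
  have h3 : D.sm j := by
    rw [← h2]; exact D.sm_mul_right (hb.pow_succ n).1 hs
  exact h.2.2.1 (D.sm_idem h.2.1 h3)

theorem Prim.not_sm {j : A} (h : D.Prim j) : ¬ D.sm j := fun hs => h.2.2.1 (D.sm_idem h.2.1 hs)

theorem Prim.unit_of_sub_small {j y : A} (h : D.Prim j) (hy : D.Cor j y) (hs : D.sm (y - j)) :
    D.CU j y := by
  rcases h.unit_or_small hy with hu | ⟨r, hr⟩
  · exact hu
  · exfalso
    have key : ∀ k : ℕ, D.sm (y ^ (k + 1) - j) := by
      intro k
      induction k with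
      | zero => simpa using hs
      | succ k ih =>
        have : y ^ (k + 1 + 1) - j = (y ^ (k + 1) - j) * y + (y - j) := by
          rw [pow_succ y (k + 1), sub_mul, hy.2.1]; abel
        rw [this]
        exact D.sm_add (D.sm_mul_right hy.1 ih) hs
    have := D.sm_sub hr (key r)
    rw [sub_sub_cancel] at this
    exact h.not_sm this

/-- locality of the corner -/
theorem Prim.unit_of_add {j a b : A} (h : D.Prim j) (ha : D.Cor j a) (hb : D.Cor j b)
    (hab : a + b = j) : D.CU j a ∨ D.CU j b := by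
  rcases h.unit_or_small ha with hu | ⟨n, hn⟩
  · exact Or.inl hu
  · right
    set m := n + 1 with hm
    set t := ∑ i ∈ Finset.range m, a ^ i with ht
    have h1 : (1 - a) * t = 1 - a ^ m := mul_neg_geom_sum a m
    have h2 : t * (1 - a) = 1 - a ^ m := geom_sum_mul_neg a m
    have htS : t ∈ D.S := D.S.sum_mem (fun i _ => D.S.pow_mem ha.1 i)
    have hjt : j * t = t * j := by
      rw [ht, Finset.mul_sum, Finset.sum_mul]
      apply Finset.sum_congr rfl
      intro i _
      cases i with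
      | zero => simp
      | succ i => rw [(ha.pow_succ i).2.1, (ha.pow_succ i).2.2]
    have hb1 : b = (1 - a) * j := by rw [sub_mul, one_mul, ha.2.2, ← hab]; abel
    have hb2 : b = j * (1 - a) := by rw [mul_sub, mul_one, ha.2.1, ← hab]; abel
    have hy : D.Cor j (j - a ^ m) := h.cor.sub (ha.pow_succ n)
    have hyu : D.CU j (j - a ^ m) := by
      apply h.unit_of_sub_small hy
      have : j - a ^ m - j = -(a ^ m) := by abel
      rw [this]; exact D.sm_neg hn
    obtain ⟨-, y', hy', hy1, hy2⟩ := hyu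
    have e1 : b * (t * j) = j - a ^ m := by
      calc b * (t * j) = (1 - a) * (j * t) * j := by rw [hb1]; noncomm_ring
        _ = ((1 - a) * t) * (j * j) := by rw [hjt]; noncomm_ring
        _ = j - a ^ m := by rw [h1, h.2.1, sub_mul, one_mul, (ha.pow_succ n).2.2]
    have e2 : (t * j) * b = j - a ^ m := by
      calc (t * j) * b = t * (j * j) * (1 - a) := by rw [hb2]; noncomm_ring
        _ = (j * t) * (1 - a) := by rw [h.2.1, hjt]
        _ = j * (t * (1 - a)) := by rw [mul_assoc]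
        _ = j - a ^ m := by rw [h2, mul_sub, mul_one, (ha.pow_succ n).2.1]
    have htj : D.Cor j (t * j) :=
      ⟨D.S.mul_mem htS h.1, by rw [← mul_assoc, hjt, mul_assoc, h.2.1], by rw [mul_assoc, h.2.1]⟩
    have hr : b * (t * j * y') = j := by rw [← mul_assoc, e1, hy1]
    have hl : (y' * (t * j)) * b = j := by rw [mul_assoc, e2, hy2]
    have := inv_unique (hy'.mul htj) (htj.mul hy') hr hl
    exact ⟨hb, t * j * y', htj.mul hy', hr, by rw [← this]; exact hl⟩

theorem CU.inv {j a : A} (hu : D.CU j a) : ∃ b, D.CU j b ∧ a * b = j ∧ b * a = j := by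
  obtain ⟨ha, b, hb, h1, h2⟩ := hu
  exact ⟨b, ⟨hb, a, ha, h2, h1⟩, h1, h2⟩

/-- Rosenberg's lemma in the corner of a primitive idempotent -/
theorem Prim.exists_unit_of_sum {j : A} (h : D.Prim j) {ι : Type*} (s : Finset ι) (f : ι → A)
    (hf : ∀ i ∈ s, D.Cor j (f i)) (hu : D.CU j (∑ i ∈ s, f i)) : ∃ i ∈ s, D.CU j (f i) := by
  classical
  induction s using Finset.induction_on with
  | empty =>
    exfalso
    obtain ⟨-, b, -, h1, -⟩ := hu
    rw [Finset.sum_empty, zero_mul] at h1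
    exact h.2.2.1 h1.symm
  | insert a s ha ih =>
    rw [Finset.sum_insert ha] at hu
    obtain ⟨u', hu', h1, h2⟩ := hu.inv
    have hfa := hf a (Finset.mem_insert_self a s)
    have hfs : D.Cor j (∑ i ∈ s, f i) := Cor.sum s f (fun i hi => hf i (Finset.mem_insert_of_mem hi))
    have h3 : f a * u' + (∑ i ∈ s, f i) * u' = j := by rw [← add_mul, h1]
    rcases h.unit_of_add (hfa.mul hu'.1) (hfs.mul hu'.1) h3 with h4 | h4
    · refine ⟨a, Finset.mem_insert_self a s, ?_⟩
      have := h4.mul hu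
      rwa [mul_assoc, h2, hfa.2.2] at this
    · have := h4.mul hu
      rw [mul_assoc, h2, hfs.2.2] at this
      obtain ⟨i, hi, hi'⟩ := ih (fun i hi => hf i (Finset.mem_insert_of_mem hi)) this
      exact ⟨i, Finset.mem_insert_of_mem hi, hi'⟩

theorem sm_pow_sub {a : A} (ha : a ∈ D.S) (hd : D.sm (a * a - a)) (n : ℕ) :
    D.sm (a ^ (n + 1) - a) := by
  induction n with
  | zero => simpa using D.sm_zero
  | succ n ih =>
    have : a ^ (n + 1 + 1) - a = (a ^ (n + 1) - a) * a + (a * a - a) := by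
      rw [_root_.pow_succ a (n + 1), sub_mul]; abel
    rw [this]
    exact D.sm_add (D.sm_mul_right ha ih) hd

/-- lifting of idempotents; the lift has the form `a * x = y * a`. -/
theorem lift_idem {a : A} (ha : a ∈ D.S) (hd : D.sm (a * a - a)) :
    ∃ e ∈ D.S, e * e = e ∧ D.sm (e - a) ∧ (∃ x ∈ D.S, e = a * x) ∧ (∃ y ∈ D.S, e = y * a) := by
  obtain ⟨ε, hε, c, hc, n, h1, h2, h3, h4, h5, h6⟩ := D.fit a ha
  have h5' : c * ε * a = ε := by
    calc c * ε * a = c * (ε * a) := by rw [mul_assoc]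
      _ = c * (a * ε) := by rw [h2]
      _ = (c * a) * ε := by rw [mul_assoc]
      _ = ε := by rw [← h3, h5]
  refine ⟨ε, hε, h1, ?_, ⟨c * ε, D.S.mul_mem hc hε, by rw [← mul_assoc, h5]⟩,
    ⟨c * ε, D.S.mul_mem hc hε, h5'.symm⟩⟩
  have e1 : D.sm (a * ε - ε) := by
    have : a * ε - ε = (a * a - a) * (c * ε) := by
      rw [sub_mul]
      have x1 : a * a * (c * ε) = a * (a * c * ε) := by noncomm_ring
      have x2 : a * (c * ε) = a * c * ε := by noncomm_ring
      rw [x1, x2, h5]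
    rw [this]
    exact D.sm_mul_right (D.S.mul_mem hc hε) hd
  have e2 : D.sm (a * (1 - ε)) := by
    have h1ε : (1 - ε) ∈ D.S := D.S.sub_mem D.S.one_mem hε
    have h7 : D.sm (a ^ (n + 1) * (1 - ε)) := by
      rw [_root_.pow_succ', mul_assoc]; exact D.sm_mul_left ha h6
    have h8 := D.sm_mul_right h1ε (sm_pow_sub ha hd n)
    have : a * (1 - ε) = a ^ (n + 1) * (1 - ε) - (a ^ (n + 1) - a) * (1 - ε) := by
      rw [sub_mul (a ^ (n + 1))]; abel
    rw [this]
    exact D.sm_sub h7 h8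
  have : ε - a = -(a * ε - ε) - a * (1 - ε) := by
    rw [mul_sub, mul_one]; abel
  rw [this]
  exact D.sm_sub (D.sm_neg e1) e2

/-- Two idempotents congruent modulo an ideal `K` are equivalent up to idempotents of `K`. -/
theorem equiv_mod {K : A → Prop} (K_add : ∀ {a b : A}, K a → K b → K (a + b))
    (K_neg : ∀ {a : A}, K a → K (-a)) (K_left : ∀ {a b : A}, b ∈ D.S → K a → K (b * a))
    (K_right : ∀ {a b : A}, b ∈ D.S → K a → K (a * b)) (K_sm : ∀ {a : A}, D.sm a → K a)
    {i j : A} (hi : i ∈ D.S) (hj : j ∈ D.S) (hii : i * i = i) (hjj : j * j = j) (hK : K (i - j)) :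
    ∃ j₁ j₂ i₁ i₂ a b : A, j₁ ∈ D.S ∧ j₂ ∈ D.S ∧ i₁ ∈ D.S ∧ i₂ ∈ D.S ∧ a ∈ D.S ∧ b ∈ D.S ∧
      j = j₁ + j₂ ∧ i = i₁ + i₂ ∧ j₂ * j₂ = j₂ ∧ i₂ * i₂ = i₂ ∧ j₁ = a * b ∧ i₁ = b * a ∧
      K j₂ ∧ K i₂ := by
  have K_sub : ∀ {a b : A}, K a → K b → K (a - b) := fun ha hb => by
    rw [sub_eq_add_neg]; exact K_add ha (K_neg hb)
  set g := j * i * j with hg
  have hgS : g ∈ D.S := D.S.mul_mem (D.S.mul_mem hj hi) hj
  have hgj : K (g - j) := by
    have : g - j = j * (i - j) * j := by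
      rw [hg, mul_sub, sub_mul, hjj, hjj]
    rw [this]; exact K_right hj (K_left hj hK)
  obtain ⟨ε, hε, c, hc, n, h1, h2, h3, h4, h5, h6⟩ := D.fit g hgS
  have hjg : j * g = g := by rw [hg, ← mul_assoc, ← mul_assoc, hjj]
  have hgj' : g * j = g := by rw [hg, mul_assoc, hjj]
  have h5' : c * ε * g = ε := by
    calc c * ε * g = c * (ε * g) := mul_assoc c ε g
      _ = c * (g * ε) := by rw [h2]
      _ = (c * g) * ε := (mul_assoc c g ε).symm
      _ = ε := by rw [← h3, h5]
  have hεl : j * ε = ε := by rw [← h5, ← mul_assoc, ← mul_assoc, hjg]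
  have hεr : ε * j = ε := by rw [← h5', mul_assoc, hgj']
  have h1ε : (1 - ε) ∈ D.S := D.S.sub_mem D.S.one_mem hε
  -- `K (j - ε)`
  have hKpow : ∀ k : ℕ, K (g ^ (k + 1) - j) := by
    intro k
    induction k with
    | zero => simpa using hgj
    | succ k ih =>
      have : g ^ (k + 1 + 1) - j = (g ^ (k + 1) - j) * g + (g - j) := by
        rw [_root_.pow_succ g (k + 1), sub_mul, hjg]; abel
      rw [this]; exact K_add (K_right hgS ih) hgj
  have hKj2 : K (j - ε) := by
    have h7 : D.sm (g ^ (n + 1) * (1 - ε)) := by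
      rw [_root_.pow_succ', mul_assoc]; exact D.sm_mul_left hgS h6
    have : j - ε = g ^ (n + 1) * (1 - ε) - (g ^ (n + 1) - j) * (1 - ε) := by
      rw [sub_mul (g ^ (n + 1)), mul_sub j, mul_one, hεl]; abel
    rw [this]
    exact K_sub (K_sm h7) (K_right h1ε (hKpow n))
  set a := ε * c * j * i with ha
  set b := i * j * ε with hb
  have hab : a * b = ε := by
    calc a * b = ε * c * (j * (i * i) * j) * ε := by rw [ha, hb]; noncomm_ring
      _ = ε * c * g * ε := by rw [hii]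
      _ = ε * (c * g * ε) := by noncomm_ring
      _ = ε := by rw [← h3, h5, h1]
  have haS : a ∈ D.S := D.S.mul_mem (D.S.mul_mem (D.S.mul_mem hε hc) hj) hi
  have hbS : b ∈ D.S := D.S.mul_mem (D.S.mul_mem hi hj) hε
  have hεa : ε * a = a := by rw [ha, ← mul_assoc, ← mul_assoc, ← mul_assoc, h1]
  have hbaidem : (b * a) * (b * a) = b * a := by
    calc (b * a) * (b * a) = b * (a * b) * a := by noncomm_ring
      _ = b * a := by rw [hab, mul_assoc, hεa]
  have hiba : i * (b * a) = b * a := by rw [hb]; simp only [← mul_assoc, hii]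
  have hbai : (b * a) * i = b * a := by rw [ha]; simp only [mul_assoc, hii]
  -- `K (i - b a)`
  have hKi2 : K (i - b * a) := by
    -- `b a = i j ε c j i`, and `ε ≡ j`, `j c j ≡ ... `
    have hKε : K (ε - j) := by
      have := K_neg hKj2; rwa [neg_sub] at this
    -- `ε = g c ε`, so `ε c j`-type expressions: use `b a = i (j ε c j) i` and `j ε c j = ε c`
    have e1 : b * a = i * (ε * c) * i := by
      calc b * a = i * (j * (ε * ε)) * c * j * i := by rw [ha, hb]; noncomm_ring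
        _ = i * ε * c * j * i := by rw [h1, hεl]
        _ = i * (c * (ε * j)) * i := by rw [mul_assoc i ε c, ← h4]; noncomm_ring
        _ = i * (ε * c) * i := by rw [hεr, h4]
    -- `ε c ≡ j` : `ε = g c ε = g (ε c)`, and `g ≡ j`, `j (ε c) = ε c`
    have e2 : K (ε * c - j) := by
      have x1 : ε = g * (ε * c) := by rw [← h4, ← mul_assoc, h5]
      have x2 : ε * c - j = -((g - j) * (ε * c)) + (ε - j) := by
        rw [sub_mul, ← x1, ← mul_assoc, hεl]; abel
      rw [x2]
      exact K_add (K_neg (K_right (D.S.mul_mem hε hc) hgj)) hKε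
    have e3 : i - b * a = -(i * (ε * c - j) * i) - i * (j - i) * i := by
      rw [e1, mul_sub, sub_mul, mul_sub i j i, sub_mul (i * j), hii, hii]; abel
    rw [e3]
    have hK' : K (j - i) := by have := K_neg hK; rwa [neg_sub] at this
    exact K_sub (K_neg (K_right hi (K_left hi e2))) (K_right hi (K_left hi hK'))
  refine ⟨ε, j - ε, b * a, i - b * a, a, b, hε, D.S.sub_mem hj hε, D.S.mul_mem hbS haS,
    D.S.sub_mem hi (D.S.mul_mem hbS haS), haS, hbS, by abel, by abel, ?_, ?_, hab.symm, rfl,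
    hKj2, hKi2⟩
  · rw [mul_sub, sub_mul, sub_mul, hjj, hεl, hεr, h1]; abel
  · rw [mul_sub, sub_mul, sub_mul, hii, hiba, hbai, hbaidem]; abel

end LD

end Cfsg.Agent.Lib.Helper81
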