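import Cfsg.Agent.Lib.Helper81.StarNilInst
import Cfsg.Agent.Lib.Helper81.Heights
import Cfsg.Agent.Lib.Helper21.Induced

set_option autoImplicit false
set_option linter.unusedSectionVars false
set_option linter.style.haveILetI false
open Cfsg
open scoped ComplexConjugate
open Cfsg.Agent.Lib.Helper20 Cfsg.Agent.Lib.Helper80
open Cfsg.Agent.Lib.Helper83.Star

/-! Nilpotent blocks: the two payoffs (from the hub). -/

namespace Cfsg.Agent.Lib.Helper81

variable {p : ℕ} [Fact p.Prime] {M : Ideal AlgInt} (hM : IsPModular p M)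
  {G : Type*} [Group G] [Fintype G]

theorem isPRegular_one' : IsPRegular p (1 : G) := by
  unfold IsPRegular
  rw [orderOf_one]
  exact (Fact.out : p.Prime).one_lt.ne' ∘ Nat.dvd_one.1

theorem nil_bijection (hub : HubStmt hM G) {B : Set (IrrCharacter G)}
    (hnil : IsNilpotentBlock p M B) {P : Subgroup G} (hPD : IsDefectGroup p M B P) :
    ∃ Φ : B ≃ IrrCharacter P, ∀ χ : B,
      blockHeight p B ((χ : IrrCharacter G) : G → ℂ)
        = (charDegree ((Φ χ : IrrCharacter P) : P → ℂ)).factorization p := by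
  classical
  haveI : Fintype P := Fintype.ofFinite _
  obtain ⟨χ₀, hχ₀, h0, Ψ, hΨB, hinj, hsurj, hval⟩ := nil_inst hM hub hnil hPD
  let Ψ' : IrrCharacter P → B := fun ζ => ⟨Ψ ζ, hΨB ζ⟩
  have hbij : Function.Bijective Ψ' := by
    constructor
    · intro a b hab
      exact hinj (congrArg Subtype.val hab)
    · rintro ⟨χ, hχ⟩
      obtain ⟨ζ, hζ⟩ := hsurj χ hχ
      exact ⟨ζ, Subtype.ext hζ⟩
  let E := Equiv.ofBijective Ψ' hbij
  refine ⟨E.symm, fun χ => ?_⟩
  set ζ := E.symm χ with hζ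
  have h1 : (χ : IrrCharacter G) = Ψ ζ := by
    have : E ζ = χ := by rw [hζ, Equiv.apply_symm_apply]
    rw [← this]; rfl
  rw [h1]
  have h2 := hval ζ 1 isPRegular_one'
  rw [irr_one_eq, irr_one_eq, irr_one_eq] at h2
  have h3 : charDegree ((Ψ ζ : IrrCharacter G) : G → ℂ)
      = charDegree (ζ : P → ℂ) * charDegree (χ₀ : G → ℂ) := by exact_mod_cast h2
  have h4 := blockHeight_add (p := p) (hΨB ζ)
  have h5 := (blockHeight_eq_zero_iff hχ₀).1 h0
  unfold nuDeg at h4 h5
  rw [h3, Nat.factorization_mul (charDegree_ne_zero ζ) (charDegree_ne_zero χ₀),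
    Finsupp.add_apply, h5] at h4
  omega

theorem nil_rank_one (hub : HubStmt hM G) {B : Set (IrrCharacter G)}
    (hnil : IsNilpotentBlock p M B) :
    blockRank p B = 1 ∧ ∃ χ₀ ∈ B, ∀ χ ∈ B, ∃ d : ℕ, ∀ x : G,
      pRegularPart p (χ : G → ℂ) x = (d : ℂ) * pRegularPart p (χ₀ : G → ℂ) x := by
  classical
  obtain ⟨P, hPD⟩ := Cfsg.Agent.Lib.Helper21.exists_isDefectGroup hM B hnil.1
  haveI : Fintype P := Fintype.ofFinite _
  obtain ⟨χ₀, hχ₀, h0, Ψ, hΨB, hinj, hsurj, hval⟩ := nil_inst hM hub hnil hPD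
  have key : ∀ χ ∈ B, ∃ d : ℕ, ∀ x : G,
      pRegularPart p (χ : G → ℂ) x = (d : ℂ) * pRegularPart p (χ₀ : G → ℂ) x := by
    intro χ hχ
    obtain ⟨ζ, rfl⟩ := hsurj χ hχ
    refine ⟨charDegree (ζ : P → ℂ), fun x => ?_⟩
    rw [pRegularPart_eq, pRegularPart_eq]
    by_cases hx : IsPRegular p x
    · simp only [if_pos hx]
      rw [hval ζ x hx, irr_one_eq]
    · simp only [if_neg hx, mul_zero]
  refine ⟨?_, χ₀, hχ₀, key⟩
  unfold blockRank
  have hv : pRegularPart p (χ₀ : G → ℂ) ≠ 0 := by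
    intro h
    have h1 := congrFun h 1
    rw [pRegularPart_eq] at h1
    simp only [if_pos (isPRegular_one' (p := p) (G := G)), Pi.zero_apply] at h1
    rw [irr_one_eq] at h1
    exact charDegree_ne_zero χ₀ (by exact_mod_cast h1)
  have hspan : Submodule.span ℂ ((fun χ : IrrCharacter G => pRegularPart p (χ : G → ℂ)) '' B)
      = Submodule.span ℂ {pRegularPart p (χ₀ : G → ℂ)} := by
    apply le_antisymm
    · rw [Submodule.span_le]
      rintro _ ⟨χ, hχ, rfl⟩
      obtain ⟨d, hd⟩ := key χ hχ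
      rw [SetLike.mem_coe, Submodule.mem_span_singleton]
      exact ⟨(d : ℂ), by funext x; rw [Pi.smul_apply, smul_eq_mul]; exact (hd x).symm⟩
    · rw [Submodule.span_le, Set.singleton_subset_iff]
      exact Submodule.subset_span ⟨χ₀, hχ₀, rfl⟩
  rw [hspan]
  exact finrank_span_singleton hv

end Cfsg.Agent.Lib.Helper81
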