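import Mathlib
import Cfsg.Agent.S1012
import Cfsg.Agent.S0051

set_option autoImplicit false
open Subgroup

namespace Cfsg.Agent.Lib.Helper81.BA

theorem s4a_orbit {M : Type*} [Group M] [Finite M] (Q : Subgroup M) [hn : Q.Normal]
    (hQ : Nat.card Q = 4)
    (a : M) (ha : a ^ 3 = 1) (x : M) (hx : x ∈ Q) (hx1 : x ≠ 1) (hax : a * x * a⁻¹ ≠ x) :
    ∀ q ∈ Q, q = 1 ∨ q = x ∨ q = a * x * a⁻¹ ∨ q = a * (a * x * a⁻¹) * a⁻¹ := by
  classical
  have hinj : ∀ u v : M, a * u * a⁻¹ = a * v * a⁻¹ → u = v := by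
    intro u v h
    simpa using h
  have hazx : a * (a * (a * x * a⁻¹) * a⁻¹) * a⁻¹ = x := by
    have : a * (a * (a * x * a⁻¹) * a⁻¹) * a⁻¹ = (a * a * a) * x * (a * a * a)⁻¹ := by group
    rw [this, ← pow_three', ha]; simp
  generalize hy : a * x * a⁻¹ = y at *
  generalize hz : a * y * a⁻¹ = z at *
  have hyQ : y ∈ Q := hy ▸ hn.conj_mem x hx a
  have hzQ : z ∈ Q := hz ▸ hn.conj_mem y hyQ a
  have h1 : y ≠ 1 := by
    rintro rfl
    apply hx1
    apply hinj x 1
    rw [hy]; simp
  have h2 : z ≠ 1 := by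
    rintro rfl
    apply h1
    apply hinj y 1
    rw [hz]; simp
  have h3 : z ≠ y := by
    rintro rfl
    apply hax
    apply hinj
    rw [hz, hy]
  have h4 : z ≠ x := by
    rintro rfl
    apply hax
    rw [← hy, hazx]
  let T : Finset M := {1, x, y, z}
  have hT : T.card = 4 := by
    have e1 : y ∉ ({z} : Finset M) := by simpa using h3.symm
    have e2 : x ∉ ({y, z} : Finset M) := by
      simp only [Finset.mem_insert, Finset.mem_singleton, not_or]
      exact ⟨hax.symm, h4.symm⟩
    have e3 : (1 : M) ∉ ({x, y, z} : Finset M) := by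
      simp only [Finset.mem_insert, Finset.mem_singleton, not_or]
      exact ⟨hx1.symm, h1.symm, h2.symm⟩
    show (insert 1 (insert x (insert y {z})) : Finset M).card = 4
    rw [Finset.card_insert_of_notMem e3, Finset.card_insert_of_notMem e2,
      Finset.card_insert_of_notMem e1, Finset.card_singleton]
  have hsub : (T : Set M) ⊆ (Q : Set M) := by
    intro w hw
    simp only [T, Finset.coe_insert, Finset.coe_singleton, Set.mem_insert_iff,
      Set.mem_singleton_iff] at hw
    rcases hw with rfl | rfl | rfl | rfl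
    · exact Q.one_mem
    · exact hx
    · exact hyQ
    · exact hzQ
  have hcard : (Q : Set M).ncard = 4 := by
    rw [← Nat.card_coe_set_eq]; exact hQ
  have heq : (T : Set M) = (Q : Set M) :=
    Set.eq_of_subset_of_ncard_le hsub (by rw [Set.ncard_coe_finset, hT, hcard]) (Set.toFinite _)
  intro q hq
  have hq' : q ∈ (T : Set M) := by rw [heq]; exact hq
  simpa [T] using hq'

theorem s4_recog {M : Type*} [Group M] [Finite M] (hM : Nat.card M = 24) (Q : Subgroup M)
    [Q.Normal] (hQ : Nat.card Q = 4) (hexp : ∀ x ∈ Q, x * x = 1)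
    (hC : centralizer (Q : Set M) ≤ Q) : Nonempty (M ≃* Equiv.Perm (Fin 4)) := by
  classical
  have hn : Q.Normal := inferInstance
  apply Cfsg.Agent.S1012.result hM
  intro g hg
  have hcomm : ∀ x ∈ Q, ∀ y ∈ Q, x * y = y * x := by
    intro x hx y hy
    have h1 := hexp (x * y) (Q.mul_mem hx hy)
    have h2 := hexp x hx
    have h3 := hexp y hy
    calc x * y = x * (x * y * (x * y)) * y := by rw [h1, mul_one]
      _ = (x * x) * (y * x) * (y * y) := by group
      _ = y * x := by rw [h2, h3]; simp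
  have hinvQ : ∀ x ∈ Q, x⁻¹ = x := fun x hx => inv_eq_of_mul_eq_one_left (hexp x hx)
  set e := g ^ 2 with he
  set s := g ^ 3 with hs
  have he3 : e ^ 3 = 1 := by
    rw [he, ← pow_mul]
    have := pow_orderOf_eq_one g
    rwa [hg] at this
  have hs2 : s * s = 1 := by
    rw [hs, ← pow_add]
    have := pow_orderOf_eq_one g
    rwa [hg] at this
  have he1 : e ≠ 1 := by
    intro h
    have := orderOf_dvd_of_pow_eq_one h
    rw [hg] at this; omega
  have hs1 : s ≠ 1 := by
    intro h
    have := orderOf_dvd_of_pow_eq_one h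
    rw [hg] at this; omega
  have hes : e * s = s * e := by
    rw [he, hs, ← pow_add, ← pow_add]
  have hinj : ∀ (a u v : M), a * u * a⁻¹ = a * v * a⁻¹ → u = v := by
    intro a u v h
    simpa using h
  -- e is not in Q
  have heQ : e ∉ Q := by
    intro h
    have h2 := hexp e h
    apply he1
    calc e = (e * e * e) * (e * e)⁻¹ := by group
      _ = 1 := by rw [← pow_three', he3, h2]; simp
  -- (i)
  have hfix : ∀ x ∈ Q, x ≠ 1 → e * x * e⁻¹ ≠ x := by
    intro x hx hx1 hfx
    apply heQ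
    apply hC
    rw [mem_centralizer_iff]
    intro q hq
    by_contra hne
    have hq' : e * q * e⁻¹ ≠ q := by
      intro h
      apply hne
      calc q * e = (e * q * e⁻¹) * e := by rw [h]
        _ = e * q := by group
    have hq1 : q ≠ 1 := by
      rintro rfl
      apply hq'; simp
    have h3 : e * (e * (e * q * e⁻¹) * e⁻¹) * e⁻¹ = q := by
      have : e * (e * (e * q * e⁻¹) * e⁻¹) * e⁻¹ = (e * e * e) * q * (e * e * e)⁻¹ := by group
      rw [this, ← pow_three', he3]; simp
    rcases s4a_orbit Q hQ e he3 q hq hq1 hq' x hx with h | h | h | h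
    · exact hx1 h
    · exact hq' (h ▸ hfx)
    · apply hq'
      apply hinj e
      rw [← h]; exact hfx
    · apply hq'
      apply hinj e
      apply hinj e
      rw [← h, hfx]
  -- (ii)
  have hsQ : s ∉ Q := by
    intro h
    apply hfix s h hs1
    rw [hes]; group
  -- (iii)
  obtain ⟨x, hx, hx1⟩ : ∃ x ∈ Q, x ≠ 1 := by
    by_contra hcon
    push Not at hcon
    have : Q = ⊥ := (Subgroup.eq_bot_iff_forall Q).2 hcon
    rw [this] at hQ
    simp at hQ
  have hsinv : s⁻¹ = s := inv_eq_of_mul_eq_one_left hs2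
  obtain ⟨x0, hx0, hx01, hsx0⟩ : ∃ x0 ∈ Q, x0 ≠ 1 ∧ s * x0 * s⁻¹ = x0 := by
    have hdx : s * x * s⁻¹ ∈ Q := hn.conj_mem x hx s
    by_cases hz : x * (s * x * s⁻¹) = 1
    · refine ⟨x, hx, hx1, ?_⟩
      have : s * x * s⁻¹ = x⁻¹ := (inv_eq_of_mul_eq_one_right hz).symm
      rw [this, hinvQ x hx]
    · refine ⟨x * (s * x * s⁻¹), Q.mul_mem hx hdx, hz, ?_⟩
      have h1 : s * (x * (s * x * s⁻¹)) * s⁻¹ = (s * x * s⁻¹) * ((s * s) * x * (s * s)⁻¹) := by
        group
      rw [h1, hs2]
      simp only [one_mul, inv_one, mul_one]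
      exact hcomm _ hdx _ hx
  apply hsQ
  apply hC
  rw [mem_centralizer_iff]
  intro q hq
  have hconj : ∀ u : M, s * u * s⁻¹ = u → s * (e * u * e⁻¹) * s⁻¹ = e * u * e⁻¹ := by
    intro u hu
    have h1 : s * (e * u * e⁻¹) * s⁻¹ = (s * e) * u * (s * e)⁻¹ := by group
    rw [h1, ← hes]
    have h2 : (e * s) * u * (e * s)⁻¹ = e * (s * u * s⁻¹) * e⁻¹ := by group
    rw [h2, hu]
  have hkey : s * q * s⁻¹ = q := by
    rcases s4a_orbit Q hQ e he3 x0 hx0 hx01 (hfix x0 hx0 hx01) q hq with h | h | h | h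
    · rw [h]; simp
    · rw [h]; exact hsx0
    · rw [h]; exact hconj _ hsx0
    · rw [h]; exact hconj _ (hconj _ hsx0)
  calc q * s = (s * q * s⁻¹) * s := by rw [hkey]
    _ = s * q := by group

end Cfsg.Agent.Lib.Helper81.BA
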