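import Mathlib
import Cfsg.Agent.S1012
import Cfsg.Agent.S0051
import Cfsg.Agent.Lib.Helper81.BAS4A

set_option autoImplicit false
open Subgroup

namespace Cfsg.Agent.Lib.Helper81.BA

theorem s4b_card_mul_relIndex {M : Type*} [Group M] {K U : Subgroup M} (h : K ≤ U) :
    Nat.card K * K.relIndex U = Nat.card U := by
  rw [← Nat.card_congr (subgroupOfEquivOfLe h).toEquiv]
  exact card_mul_index (K.subgroupOf U)

theorem s4b_card_subgroupOf {M : Type*} [Group M] (Q H : Subgroup M) :
    Nat.card (Q.subgroupOf H) = Nat.card (Q ⊓ H : Subgroup M) := by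
  rw [← inf_subgroupOf_right]
  exact Nat.card_congr (subgroupOfEquivOfLe inf_le_right).toEquiv

/-- the subgroup `B ∪ B t` -/
def s4bA {M : Type*} [Group M] (t : M) (ht : t * t = 1) (B : Subgroup M)
    (htB : ∀ b ∈ B, t * b * t⁻¹ ∈ B) : Subgroup M where
  carrier := {x | x ∈ B ∨ x * t ∈ B}
  one_mem' := Or.inl B.one_mem
  mul_mem' := by
    have hti : t⁻¹ = t := inv_eq_of_mul_eq_one_left ht
    rintro a b (ha | ha) (hb | hb)
    · exact Or.inl (B.mul_mem ha hb)
    · right
      rw [mul_assoc]
      exact B.mul_mem ha hb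
    · right
      have h1 : a * b * t = (a * t) * (t * b * t⁻¹) := by
        rw [hti]
        calc a * b * t = a * (t * t) * b * t := by rw [ht, mul_one]
          _ = a * t * (t * b * t) := by group
      rw [h1]
      exact B.mul_mem ha (htB b hb)
    · left
      have h1 : a * b = (a * t) * (t * (b * t) * t⁻¹) := by
        calc a * b = a * (t * t) * b := by rw [ht, mul_one]
          _ = a * t * (t * (b * t) * t⁻¹) := by group
      rw [h1]
      exact B.mul_mem ha (htB _ hb)
  inv_mem' := by
    have hti : t⁻¹ = t := inv_eq_of_mul_eq_one_left ht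
    rintro a (ha | ha)
    · exact Or.inl (B.inv_mem ha)
    · right
      have h1 : a⁻¹ * t = t * (a * t)⁻¹ * t⁻¹ := by
        rw [hti]
        calc a⁻¹ * t = (t * t) * a⁻¹ * t := by rw [ht, one_mul]
          _ = t * (a * t⁻¹)⁻¹ * t := by group
          _ = t * (a * t)⁻¹ * t := by rw [hti]
      rw [h1]
      exact htB _ (B.inv_mem ha)

theorem s4b_mem_A {M : Type*} [Group M] {t : M} {ht : t * t = 1} {B : Subgroup M}
    {htB : ∀ b ∈ B, t * b * t⁻¹ ∈ B} {x : M} : x ∈ s4bA t ht B htB ↔ x ∈ B ∨ x * t ∈ B := Iff.rfl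

theorem s4b_card_A {M : Type*} [Group M] [Finite M] {t : M} {ht : t * t = 1} {B : Subgroup M}
    {htB : ∀ b ∈ B, t * b * t⁻¹ ∈ B} (htn : t ∉ B) :
    Nat.card (s4bA t ht B htB) = 2 * Nat.card B := by
  have h1 : ((s4bA t ht B htB : Subgroup M) : Set M) = (B : Set M) ∪ (fun b => b * t⁻¹) '' (B : Set M) := by
    ext x
    simp only [SetLike.mem_coe, s4b_mem_A, Set.mem_union, Set.mem_image]
    constructor
    · rintro (h | h)
      · exact Or.inl h
      · exact Or.inr ⟨x * t, h, by group⟩
    · rintro (h | ⟨b, hb, rfl⟩)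
      · exact Or.inl h
      · right
        simpa using hb
  have hdisj : Disjoint (B : Set M) ((fun b => b * t⁻¹) '' (B : Set M)) := by
    rw [Set.disjoint_left]
    rintro x hx ⟨b, hb, rfl⟩
    apply htn
    have : t = (b * t⁻¹)⁻¹ * b := by group
    rw [this]
    exact B.mul_mem (B.inv_mem hx) hb
  have h2 : Nat.card (s4bA t ht B htB) = ((s4bA t ht B htB : Subgroup M) : Set M).ncard :=
    Nat.card_coe_set_eq _
  have h3 : Nat.card B = (B : Set M).ncard := Nat.card_coe_set_eq _
  rw [h2, h1, Set.ncard_union_eq hdisj (Set.toFinite _) (Set.toFinite _),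
    Set.ncard_image_of_injective _ (mul_left_injective _), h3]
  ring

theorem s4z2_recog {M : Type*} [Group M] [Finite M] (hM : Nat.card M = 48) (Q : Subgroup M)
    [Q.Normal] (hQ : Nat.card Q = 8) (hexp : ∀ x ∈ Q, x * x = 1)
    (hC : centralizer (Q : Set M) ≤ Q) (y : M) (hy : y ∈ center M) (hy1 : y ≠ 1) (t : M)
    (ht : t * t = 1) (htQ : t ∉ Q) (B : Subgroup M) (hBQ : B ≤ Q) (hB : Nat.card B = 4)
    (hyB : y ∉ B) (htB : ∀ b ∈ B, t * b * t⁻¹ ∈ B) :
    Nonempty (M ≃* Equiv.Perm (Fin 4) × Multiplicative (ZMod 2)) := by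
  classical
  have hn : Q.Normal := inferInstance
  have hycomm : ∀ g : M, g * y = y * g := fun g => mem_center_iff.1 hy g
  have hyQ : y ∈ Q := hC (by
    rw [mem_centralizer_iff]
    intro q _
    exact hycomm q)
  have hyy : y * y = 1 := hexp y hyQ
  have hord : orderOf y = 2 := orderOf_eq_prime (by rw [pow_two]; exact hyy) hy1
  set K : Subgroup M := zpowers y with hK
  have hKcard : Nat.card K = 2 := by rw [hK, Nat.card_zpowers, hord]
  have hKmem : ∀ x ∈ K, x = 1 ∨ x = y := by
    intro x hx
    obtain ⟨n, rfl⟩ := mem_zpowers_iff.1 hx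
    rcases Int.even_or_odd' n with ⟨m, rfl | rfl⟩
    · left
      rw [zpow_mul, zpow_two, hyy, one_zpow]
    · right
      rw [zpow_add, zpow_mul, zpow_two, hyy, one_zpow, one_mul, zpow_one]
  have hKcen : K ≤ center M := by
    rw [hK, zpowers_le]; exact hy
  haveI hKn : K.Normal := by
    constructor
    intro x hx g
    have : g * x * g⁻¹ = x := by
      have := mem_center_iff.1 (hKcen hx) g
      rw [this]; group
    rw [this]; exact hx
  haveI hKc : IsMulCommutative K := by
    rw [hK]; infer_instance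
  set A : Subgroup M := s4bA t ht B htB with hA
  have htnB : t ∉ B := fun h => htQ (hBQ h)
  have hAcard : Nat.card A = 8 := by rw [hA, s4b_card_A htnB, hB]
  have hAK : A ⊓ K = ⊥ := by
    rw [eq_bot_iff_forall]
    intro x hx
    obtain ⟨hxA, hxK⟩ := mem_inf.1 hx
    rcases hKmem x hxK with h | h
    · exact h
    · exfalso
      rw [h] at hxA
      rcases s4b_mem_A.1 hxA with h' | h'
      · exact hyB h'
      · apply htQ
        have : t = y⁻¹ * (y * t) := by group
        rw [this]
        exact Q.mul_mem (Q.inv_mem hyQ) (hBQ h')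
  have hUcard : Nat.card (K ⊔ A : Subgroup M) = 16 := by
    rw [← s4b_card_mul_relIndex (le_sup_left : K ≤ K ⊔ A), relIndex_sup_left,
      ← inf_relIndex_right, inf_comm, hAK, relIndex_bot_left, hKcard, hAcard]
  have hUidx : (K ⊔ A : Subgroup M).index = 3 := by
    have := card_mul_index (K ⊔ A : Subgroup M)
    rw [hUcard, hM] at this
    omega
  obtain ⟨H, hH⟩ := Cfsg.Agent.S0051.result K (K ⊔ A) le_sup_left
    (by rw [hKcard, hUidx]; decide) A le_sup_right hAK rfl
  have hHcard : Nat.card H = 24 := by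
    have := hH.card_mul_card
    rw [hKcard, hM] at this
    omega
  have hHidx : H.index = 2 := by rw [hH.index_eq_card, hKcard]
  haveI hHn : H.Normal := normal_of_index_eq_two hHidx
  have hKH : K ⊓ H = ⊥ := hH.disjoint.eq_bot
  have hyH : y ∉ H := by
    intro h
    apply hy1
    have : y ∈ K ⊓ H := mem_inf.2 ⟨mem_zpowers y, h⟩
    rw [hKH] at this
    exact mem_bot.1 this
  -- the subgroup Q' of H
  have hrel : H.relIndex Q = 2 := by
    have h1 : H.relIndex Q ∣ 2 := hHidx ▸ relIndex_dvd_index_of_normal H Q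
    have h2 : H.relIndex Q ≠ 1 := by
      intro h
      exact hyH (relIndex_eq_one.1 h hyQ)
    rcases (Nat.dvd_prime Nat.prime_two).1 h1 with h | h
    · exact absurd h h2
    · exact h
  have hQ'card : Nat.card (Q.subgroupOf H) = 4 := by
    rw [s4b_card_subgroupOf, inf_comm, ← s4b_card_subgroupOf]
    have := card_mul_index (H.subgroupOf Q)
    rw [hQ] at this
    change Nat.card (H.subgroupOf Q) * H.relIndex Q = 8 at this
    rw [hrel] at this
    omega
  have hS4 : Nonempty (H ≃* Equiv.Perm (Fin 4)) := by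
    apply s4_recog hHcard (Q.subgroupOf H) hQ'card
    · intro x hx
      have := hexp (x : M) (mem_subgroupOf.1 hx)
      exact Subtype.ext this
    · intro x hx
      rw [mem_subgroupOf]
      apply hC
      rw [mem_centralizer_iff]
      intro q hq
      rw [mem_centralizer_iff] at hx
      by_cases hqH : q ∈ H
      · have := hx ⟨q, hqH⟩ (mem_subgroupOf.2 hq)
        exact congrArg Subtype.val this
      · have hqy : q * y ∈ H := (mul_mem_iff_of_index_two hHidx).2
          ⟨fun h => absurd h hqH, fun h => absurd h hyH⟩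
        have := hx ⟨q * y, hqy⟩ (mem_subgroupOf.2 (Q.mul_mem hq hyQ))
        have h2 : q * y * (x : M) = (x : M) * (q * y) := congrArg Subtype.val this
        have h3 : q * (x : M) * y = (x : M) * q * y := by
          calc q * (x : M) * y = q * ((x : M) * y) := by group
            _ = q * (y * (x : M)) := by rw [hycomm]
            _ = q * y * (x : M) := by group
            _ = (x : M) * (q * y) := h2
            _ = (x : M) * q * y := by group
        exact mul_right_cancel h3
  obtain ⟨φ⟩ := hS4
  let f : H × K →* M := MonoidHom.noncommCoprod H.subtype K.subtype (by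
    intro h k
    exact (mem_center_iff.1 (hKcen k.2) h))
  have hfinj : Function.Injective f := by
    rw [injective_iff_map_eq_one]
    rintro ⟨h, k⟩ hhk
    have h1 : (h : M) * (k : M) = 1 := hhk
    have h2 : (k : M) ∈ K ⊓ H := by
      refine mem_inf.2 ⟨k.2, ?_⟩
      have : (k : M) = (h : M)⁻¹ := (inv_eq_of_mul_eq_one_right h1).symm
      rw [this]; exact H.inv_mem h.2
    rw [hKH] at h2
    have h3 : (k : M) = 1 := mem_bot.1 h2
    have h4 : (h : M) = 1 := by rw [h3, mul_one] at h1; exact h1
    exact Prod.ext (Subtype.ext h4) (Subtype.ext h3)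
  have hfbij : Function.Bijective f := by
    apply (Nat.bijective_iff_injective_and_card f).2
    refine ⟨hfinj, ?_⟩
    rw [Nat.card_prod, hHcard, hKcard, hM]
  have hZ : Nat.card (Multiplicative (ZMod 2)) = 2 := by
    simp
  haveI : Fact (Nat.Prime 2) := ⟨Nat.prime_two⟩
  exact ⟨(MulEquiv.ofBijective f hfbij).symm.trans
    (MulEquiv.prodCongr φ (mulEquivOfPrimeCardEq hKcard hZ))⟩

end Cfsg.Agent.Lib.Helper81.BA
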