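import Cfsg.Agent.Lib.Helper81.StarDef
import Cfsg.Agent.Lib.Helper32.GenChar

set_option autoImplicit false
set_option linter.unusedSectionVars false
set_option linter.style.haveILetI false
open Cfsg
open scoped ComplexConjugate
open Cfsg.Agent.Lib.Helper20

/-! Stars of irreducible characters of a block: norms, block membership, values on the
`p`-regular elements, composition. -/

namespace Cfsg.Agent.Lib.Helper81

variable {G : Type*} [Group G] [Fintype G] {p : ℕ} {M : Ideal AlgInt}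

theorem Th_eq_zero_of_not_ind (hM : IsPModular p M) {B : Set (IrrCharacter G)} (hB : IsPBlock M B)
    {χ : IrrCharacter G} (hχ : χ ∈ B) {x : G} (hx : ∃ k : ℕ, orderOf x = p ^ k)
    {b : Set (IrrCharacter (Cx x))} (hb : IsPBlock M b) (hnot : ¬ IsInducedBlock M (Cx x) b B)
    {s : Cx x} (hs : IsPRegular p s) : Th (Cx x) b x (χ : G → ℂ) s = 0 :=
  second_main_char hM x hx B hB χ hχ b (inducedBlockDefined_centralizer hM x hx b hb) hnot s hs

theorem Th_eq_zero_of_not_mem (hM : IsPModular p M) {B : Set (IrrCharacter G)}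
    {χ : IrrCharacter G} (hχ : χ ∉ B) {x : G} (hx : ∃ k : ℕ, orderOf x = p ^ k)
    {b : Set (IrrCharacter (Cx x))} (hind : IsInducedBlock M (Cx x) b B)
    {s : Cx x} (hs : IsPRegular p s) : Th (Cx x) b x (χ : G → ℂ) s = 0 := by
  haveI : Fintype (Cx x) := Fintype.ofFinite _
  exact second_main_char' hM (Cx x) x hx (self_mem_Cx x) (Cx_comm x) le_rfl hind χ hχ s hs

theorem mS_eq_zero_of_left {x : G} [Fintype (Cx x)] {b : Set (IrrCharacter (Cx x))} {χ ψ : G → ℂ}
    (h : ∀ s : Cx x, IsPRegular p s → Th (Cx x) b x χ s = 0) : mS p (Cx x) b x χ ψ = 0 := by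
  classical
  unfold mS classInner
  rw [Finset.sum_eq_zero, mul_zero]
  intro s _
  rw [pRegularPart_eq]
  by_cases hs : IsPRegular p s
  · simp only [if_pos hs, h s hs, zero_mul]
  · simp only [if_neg hs, zero_mul]

theorem mS_eq_zero_of_right {x : G} [Fintype (Cx x)] {b : Set (IrrCharacter (Cx x))} {χ ψ : G → ℂ}
    (h : ∀ s : Cx x, IsPRegular p s → Th (Cx x) b x ψ s = 0) : mS p (Cx x) b x χ ψ = 0 := by
  classical
  unfold mS classInner
  rw [Finset.sum_eq_zero, mul_zero]
  intro s _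
  rw [pRegularPart_eq]
  by_cases hs : IsPRegular p s
  · simp only [if_pos hs, h s hs, map_zero, mul_zero]
  · simp only [if_neg hs, zero_mul]

theorem Fx_congr_ind (hM : IsPModular p M) {B : Set (IrrCharacter G)} (hB : IsPBlock M B)
    {χ : IrrCharacter G} (hχ : χ ∈ B) {x : G} (hx : ∃ k : ℕ, orderOf x = p ^ k)
    {L L' : Set (IrrCharacter (Cx x)) → ℂ}
    (h : ∀ b, IsInducedBlock M (Cx x) b B → L b = L' b) {s : Cx x} (hs : IsPRegular p s) :
    Fx M x L (χ : G → ℂ) s = Fx M x L' (χ : G → ℂ) s := by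
  classical
  have : Finite (IrrCharacter (Cx x)) := finite_irrCharacter
  have : Fintype (Set (IrrCharacter (Cx x))) := Fintype.ofFinite _
  rw [Fx_eq, Fx_eq]
  apply Finset.sum_congr rfl; intro b _
  by_cases hb : IsPBlock M b
  · rw [if_pos hb, if_pos hb]
    by_cases hind : IsInducedBlock M (Cx x) b B
    · rw [h b hind]
    · rw [Th_eq_zero_of_not_ind hM hB hχ hx hb hind hs, mul_zero, mul_zero]
  · rw [if_neg hb, if_neg hb]

theorem Fx_const_mul (x : G) (c : ℂ) (L : Set (IrrCharacter (Cx x)) → ℂ) (χ : G → ℂ) (s : Cx x) :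
    Fx M x (fun b => c * L b) χ s = c * Fx M x L χ s := by
  classical
  have : Finite (IrrCharacter (Cx x)) := finite_irrCharacter
  have : Fintype (Set (IrrCharacter (Cx x))) := Fintype.ofFinite _
  rw [Fx_eq, Fx_eq, Finset.mul_sum]
  apply Finset.sum_congr rfl; intro b _
  split_ifs
  · ring
  · ring

theorem PReps.one_mem {X : Finset G} (hX : PReps p X) : (1 : G) ∈ X := by
  obtain ⟨x, ⟨hx, hc⟩, -⟩ := hX.rep 1 ⟨0, by simp⟩
  obtain ⟨t, ht⟩ := isConj_iff.1 hc
  have : x = 1 := by rw [← ht]; group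
  rwa [this] at hx

/-- coefficients only matter on the subsections of `B` -/
theorem IsStar.congr_ind (hM : IsPModular p M) {B : Set (IrrCharacter G)} (hB : IsPBlock M B)
    {χ : IrrCharacter G} (hχ : χ ∈ B) {X : Finset G} (hX : PReps p X)
    {L L' : ∀ x : G, Set (IrrCharacter (Cx x)) → ℂ} {θ : G → ℂ}
    (h : IsStar p M X L (χ : G → ℂ) θ)
    (hL : ∀ x ∈ X, ∀ b, IsInducedBlock M (Cx x) b B → L x b = L' x b) :
    IsStar p M X L' (χ : G → ℂ) θ :=
  ⟨h.1, fun x hx s hs => by
    rw [h.2 x hx s hs]; exact Fx_congr_ind hM hB hχ (hX.pow x hx) (hL x hx) hs⟩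

/-- values on the `p`-regular elements -/
theorem IsStar.apply_regular (hM : IsPModular p M) {B : Set (IrrCharacter G)} (hB : IsPBlock M B)
    {χ : IrrCharacter G} (hχ : χ ∈ B) {X : Finset G} (hX : PReps p X)
    {L : ∀ x : G, Set (IrrCharacter (Cx x)) → ℂ} {θ : G → ℂ}
    (h : IsStar p M X L (χ : G → ℂ) θ) {c : ℂ}
    (hc : ∀ b, IsInducedBlock M (Cx (1 : G)) b B → L 1 b = c) {s : G} (hs : IsPRegular p s) :
    θ s = c * (χ : G → ℂ) s := by
  have hs1 : s ∈ Cx (1 : G) := mem_Cx.2 (by simp)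
  have hs' : IsPRegular p (⟨s, hs1⟩ : Cx (1 : G)) := by
    unfold IsPRegular at hs ⊢; rwa [Subgroup.orderOf_mk]
  have h1 := h.2 1 hX.one_mem ⟨s, hs1⟩ hs'
  have h2 := (isStar_one hM X (irr_classFunction χ)).2 1 hX.one_mem ⟨s, hs1⟩ hs'
  simp only [one_mul] at h1 h2
  rw [h1, h2, ← Fx_const_mul]
  apply Fx_congr_ind hM hB hχ ⟨0, by simp⟩ _ hs'
  intro b hb
  rw [hc b hb, mul_one]

open Classical in
/-- the norm of a star with unimodular coefficients -/
theorem IsStar.norm_eq_one (hM : IsPModular p M) {B : Set (IrrCharacter G)} (hB : IsPBlock M B)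
    {χ : IrrCharacter G} (hχ : χ ∈ B) {X : Finset G} (hX : PReps p X)
    {L : ∀ x : G, Set (IrrCharacter (Cx x)) → ℂ} {θ : G → ℂ}
    (h : IsStar p M X L (χ : G → ℂ) θ)
    (hL : ∀ x ∈ X, ∀ b, IsInducedBlock M (Cx x) b B → L x b * conj (L x b) = 1) :
    classInner θ θ = 1 := by
  have : ∀ x : G, Finite (IrrCharacter (Cx x)) := fun x => finite_irrCharacter
  have : ∀ x : G, Fintype (Set (IrrCharacter (Cx x))) := fun x => Fintype.ofFinite _
  have h1 := (isStar_one hM X (irr_classFunction χ)).classInner_eq hM hX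
    (isStar_one hM X (irr_classFunction χ))
  rw [classInner_irr_self χ.2] at h1
  rw [h.classInner_eq hM hX h, h1]
  apply Finset.sum_congr rfl; intro x hx
  apply Finset.sum_congr rfl; intro b _
  by_cases hb : IsPBlock M b
  · rw [if_pos hb, if_pos hb]
    by_cases hind : IsInducedBlock M (Cx x) b B
    · rw [hL x hx b hind]; simp
    · rw [mS_eq_zero_of_left (fun s hs =>
        Th_eq_zero_of_not_ind hM hB hχ (hX.pow x hx) hb hind hs), mul_zero, mul_zero]
  · rw [if_neg hb, if_neg hb]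

open Classical in
/-- the star of a character of `B` is orthogonal to the characters outside `B` -/
theorem IsStar.classInner_eq_zero (hM : IsPModular p M) {B : Set (IrrCharacter G)}
    (hB : IsPBlock M B) {χ : IrrCharacter G} (hχ : χ ∈ B) {X : Finset G} (hX : PReps p X)
    {L : ∀ x : G, Set (IrrCharacter (Cx x)) → ℂ} {θ : G → ℂ}
    (h : IsStar p M X L (χ : G → ℂ) θ) {ψ : IrrCharacter G} (hψ : ψ ∉ B) :
    classInner θ (ψ : G → ℂ) = 0 := by
  have : ∀ x : G, Finite (IrrCharacter (Cx x)) := fun x => finite_irrCharacter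
  have : ∀ x : G, Fintype (Set (IrrCharacter (Cx x))) := fun x => Fintype.ofFinite _
  rw [h.classInner_eq hM hX (isStar_one hM X (irr_classFunction ψ))]
  apply Finset.sum_eq_zero; intro x hx
  apply Finset.sum_eq_zero; intro b _
  by_cases hb : IsPBlock M b
  · rw [if_pos hb]
    by_cases hind : IsInducedBlock M (Cx x) b B
    · rw [mS_eq_zero_of_right (fun s hs =>
        Th_eq_zero_of_not_mem hM hψ (hX.pow x hx) hind hs), mul_zero]
    · rw [mS_eq_zero_of_left (fun s hs =>
        Th_eq_zero_of_not_ind hM hB hχ (hX.pow x hx) hb hind hs), mul_zero]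
  · rw [if_neg hb]

/-- an integral star with unimodular coefficients, trivial on the `p`-regular section, is an
irreducible character of `B` of the same degree -/
theorem IsStar.irr (hM : IsPModular p M) {B : Set (IrrCharacter G)} (hB : IsPBlock M B)
    {χ : IrrCharacter G} (hχ : χ ∈ B) {X : Finset G} (hX : PReps p X)
    {L : ∀ x : G, Set (IrrCharacter (Cx x)) → ℂ} {θ : G → ℂ}
    (h : IsStar p M X L (χ : G → ℂ) θ) (hg : IsGeneralizedCharacter G θ)
    (hL : ∀ x ∈ X, ∀ b, IsInducedBlock M (Cx x) b B → L x b * conj (L x b) = 1)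
    (hc : ∀ b, IsInducedBlock M (Cx (1 : G)) b B → L 1 b = 1) :
    ∃ hθ : IsIrrCharacter G θ, (⟨θ, hθ⟩ : IrrCharacter G) ∈ B ∧ θ 1 = (χ : G → ℂ) 1 := by
  have h1 : θ 1 = (χ : G → ℂ) 1 := by
    rw [h.apply_regular hM hB hχ hX hc (s := 1) (by unfold IsPRegular; simp [hM.1.one_lt.ne']),
      one_mul]
  have hn := h.norm_eq_one hM hB hχ hX hL
  have hirr : IsIrrCharacter G θ := by
    rcases Cfsg.Agent.Lib.Helper32.genChar_norm_one hg hn with h2 | h2
    · exact h2
    · exfalso
      obtain ⟨m, hm, hm1⟩ := Cfsg.Agent.Lib.Helper32.irr_apply_one h2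
      obtain ⟨n, hn, hn1⟩ := Cfsg.Agent.Lib.Helper32.irr_apply_one χ.2
      rw [Pi.neg_apply, h1, hn1] at hm1
      have : ((n + m : ℕ) : ℂ) = 0 := by push_cast; linear_combination -hm1
      have : n + m = 0 := by exact_mod_cast this
      omega
  refine ⟨hirr, ?_, h1⟩
  by_contra hnot
  have := h.classInner_eq_zero hM hB hχ hX (ψ := ⟨θ, hirr⟩) hnot
  rw [show ((⟨θ, hirr⟩ : IrrCharacter G) : G → ℂ) = θ from rfl, hn] at this
  exact one_ne_zero this

/-- composition of stars -/
theorem IsStar.comp (hM : IsPModular p M) {X : Finset G}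
    {L L' : ∀ x : G, Set (IrrCharacter (Cx x)) → ℂ} {χ θ θ' : G → ℂ}
    (h : IsStar p M X L χ θ) (h' : IsStar p M X L' θ θ') :
    IsStar p M X (fun x b => L' x b * L x b) χ θ' := by
  classical
  refine ⟨h'.1, fun x hx s hs => ?_⟩
  have : Finite (IrrCharacter (Cx x)) := finite_irrCharacter
  have : Fintype (Set (IrrCharacter (Cx x))) := Fintype.ofFinite _
  rw [h'.2 x hx s hs, Fx_eq, Fx_eq]
  apply Finset.sum_congr rfl; intro b _
  by_cases hb : IsPBlock M b
  · rw [if_pos hb, if_pos hb, h.Th_eq hM hx hb hs, mul_assoc]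
  · rw [if_neg hb, if_neg hb]

end Cfsg.Agent.Lib.Helper81
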