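import Mathlib

/-!
Counting rung: a family of linear characters acting on a finite set with small stabilisers.
-/

namespace Cfsg.Agent.Lib.Helper81

theorem dvd_card_of_stabilizer_le {Γ : Type*} [Group Γ] {Ω : Type*} [Finite Ω] [MulAction Γ Ω]
    (K : Subgroup Γ) (hK : ∀ ω : Ω, MulAction.stabilizer Γ ω ≤ K) :
    K.index ∣ Nat.card Ω := by
  classical
  haveI : Fintype (MulAction.orbitRel.Quotient Γ Ω) := Fintype.ofFinite _
  rw [Nat.card_congr (MulAction.selfEquivSigmaOrbits Γ Ω), Nat.card_sigma]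
  refine Finset.dvd_sum ?_
  intro o _
  rw [Nat.card_coe_set_eq, ← MulAction.index_stabilizer]
  exact Subgroup.index_dvd_of_le (hK _)

theorem orbit_count' {G : Type*} [Group G] [Finite G] (P N Z : Subgroup G) (hN : N ≤ P)
    (hZ : Z ≤ P)
    (hcomm : ∀ x ∈ P, ∀ y ∈ P, x * y * x⁻¹ * y⁻¹ ∈ N)
    {Ω : Type*} [Finite Ω] (act : (P →* ℂˣ) → Ω → Ω)
    (h1 : ∀ ω, act 1 ω = ω)
    (hmul : ∀ l m : P →* ℂˣ, (∀ n : P, (n : G) ∈ N → l n = 1) → (∀ n : P, (n : G) ∈ N → m n = 1) →
      ∀ ω, act (l * m) ω = act l (act m ω))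
    (hstab : ∀ l : P →* ℂˣ, (∀ n : P, (n : G) ∈ N → l n = 1) → ∀ ω, act l ω = ω →
      ∀ z : P, (z : G) ∈ Z → l z = 1) :
    ((Z ⊓ N).subgroupOf Z).index ∣ Nat.card Ω := by
  classical
  set N' : Subgroup P := N.subgroupOf P with hN'
  haveI hnorm : N'.Normal := by
    constructor
    intro n hn g
    rw [hN', Subgroup.mem_subgroupOf] at hn ⊢
    have h3 := hcomm g g.2 n n.2
    have h2 : ((g * n * g⁻¹ : P) : G) = ((g : G) * n * (g : G)⁻¹ * (n : G)⁻¹) * n := by
      simp
    rw [h2]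
    exact N.mul_mem h3 hn
  letI instQ : CommGroup (P ⧸ N') :=
    { (inferInstance : Group (P ⧸ N')) with
      mul_comm := by
        intro a b
        induction a using QuotientGroup.induction_on with
        | H x =>
          induction b using QuotientGroup.induction_on with
          | H y =>
            rw [← QuotientGroup.mk_mul, ← QuotientGroup.mk_mul, QuotientGroup.eq, hN',
              Subgroup.mem_subgroupOf]
            have h3 := hcomm (y⁻¹ : P) (y⁻¹ : P).2 (x⁻¹ : P) (x⁻¹ : P).2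
            have h2 : (((x * y)⁻¹ * (y * x) : P) : G)
                = ((y⁻¹ : P) : G) * ((x⁻¹ : P) : G) * ((y⁻¹ : P) : G)⁻¹ * ((x⁻¹ : P) : G)⁻¹ := by
              simp [mul_assoc]
            rw [h2]
            exact h3 }
  let π : P →* (P ⧸ N') := QuotientGroup.mk' N'
  have hπ : ∀ n : P, (n : G) ∈ N → π n = 1 := by
    intro n hn
    exact (QuotientGroup.eq_one_iff n).2 (by rw [hN', Subgroup.mem_subgroupOf]; exact hn)
  have hπ' : ∀ n : P, π n = 1 → (n : G) ∈ N := by
    intro n hn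
    have := (QuotientGroup.eq_one_iff n).1 hn
    rwa [hN', Subgroup.mem_subgroupOf] at this
  have htriv : ∀ φ : (P ⧸ N') →* ℂˣ, ∀ n : P, (n : G) ∈ N → (φ.comp π) n = 1 := by
    intro φ n hn
    rw [MonoidHom.comp_apply, hπ n hn, map_one]
  letI instA : MulAction ((P ⧸ N') →* ℂˣ) Ω :=
    { smul := fun φ ω => act (φ.comp π) ω
      one_smul := by
        intro ω
        show act ((1 : (P ⧸ N') →* ℂˣ).comp π) ω = ω
        rw [MonoidHom.one_comp]
        exact h1 ω
      mul_smul := by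
        intro φ ψ ω
        show act ((φ * ψ).comp π) ω = act (φ.comp π) (act (ψ.comp π) ω)
        rw [MonoidHom.mul_comp]
        exact hmul _ _ (htriv φ) (htriv ψ) ω }
  let ρ : Z →* (P ⧸ N') := π.comp (Subgroup.inclusion hZ)
  have hker : ρ.ker = (Z ⊓ N).subgroupOf Z := by
    ext z
    rw [MonoidHom.mem_ker, Subgroup.mem_subgroupOf, Subgroup.mem_inf]
    constructor
    · intro h
      exact ⟨z.2, hπ' _ h⟩
    · intro h
      exact hπ _ h.2
  haveI : NeZero (Monoid.exponent (P ⧸ N')) := ⟨Monoid.exponent_ne_zero_of_finite⟩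
  haveI : NeZero (Monoid.exponent ρ.range) := ⟨Monoid.exponent_ne_zero_of_finite⟩
  have hsurj := MonoidHom.domRestrict_surjective (G := P ⧸ N') ℂ ρ.range
  have hidx : (MonoidHom.domRestrictHom ρ.range ℂˣ).ker.index = ((Z ⊓ N).subgroupOf Z).index := by
    rw [Subgroup.index_ker, ← hker, Subgroup.index_ker,
      MonoidHom.range_eq_top.2 hsurj, Subgroup.card_top,
      CommGroup.card_monoidHom_of_hasEnoughRootsOfUnity]
  rw [← hidx]
  refine dvd_card_of_stabilizer_le _ ?_
  intro ω φ hφ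
  rw [MulAction.mem_stabilizer_iff] at hφ
  rw [MonoidHom.mem_ker]
  ext ⟨q, z, rfl⟩
  have := hstab (φ.comp π) (htriv φ) ω hφ (Subgroup.inclusion hZ z) z.2
  simpa [ρ] using congrArg Units.val this

end Cfsg.Agent.Lib.Helper81
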