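import Cfsg.Agent.Lib.Helper81.StarHub
import Cfsg.Agent.Lib.Helper81.StarIrr
import Cfsg.Agent.Lib.Helper81.KZeroMin
import Cfsg.Agent.Lib.Helper80.GAFSysT
import Cfsg.Agent.Lib.Helper80.GATrans2
import Cfsg.Agent.Lib.Helper81.StarOrb

set_option autoImplicit false
set_option linter.unusedSectionVars false
set_option linter.style.haveILetI false
open Cfsg
open scoped ComplexConjugate
open Cfsg.Agent.Lib.Helper20 Cfsg.Agent.Lib.Helper80
open Cfsg.Agent.Lib.Helper80.GA Cfsg.Agent.Lib.Helper5 Cfsg.Agent.Lib.Helper78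
open Cfsg.Agent.Lib.Helper83.Star

/-! The action of the linear characters of `P / foc(F)` on the characters of a block. -/

namespace Cfsg.Agent.Lib.Helper81

section Eta

variable {G : Type*} [Group G] [Fintype G]

/-- extension by zero of a linear character of `P` -/
noncomputable def etaL (P : Subgroup G) (l : P →* ℂˣ) : G → ℂ :=
  fun g => by classical exact if h : g ∈ P then ((l ⟨g, h⟩ : ℂˣ) : ℂ) else 0

theorem etaL_mem {P : Subgroup G} (l : P →* ℂˣ) {g : G} (h : g ∈ P) :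
    etaL P l g = ((l ⟨g, h⟩ : ℂˣ) : ℂ) := by
  unfold etaL; rw [dif_pos h]

theorem etaL_one {P : Subgroup G} {g : G} (h : g ∈ P) : etaL P 1 g = 1 := by
  rw [etaL_mem _ h]; simp

theorem etaL_mul {P : Subgroup G} (l m : P →* ℂˣ) {g : G} (h : g ∈ P) :
    etaL P (l * m) g = etaL P l g * etaL P m g := by
  rw [etaL_mem _ h, etaL_mem _ h, etaL_mem _ h]; simp

theorem etaL_mul_conj {P : Subgroup G} (l : P →* ℂˣ) {g : G} (h : g ∈ P) :
    etaL P l g * conj (etaL P l g) = 1 := by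
  rw [etaL_mem _ h, Complex.mul_conj, Complex.normSq_eq_norm_sq]
  have h1 : ((l ⟨g, h⟩ : ℂˣ) : ℂ) ^ (Nat.card P) = 1 := by
    rw [← Units.val_pow_eq_pow_val, ← map_pow, pow_card_eq_one', map_one, Units.val_one]
  rw [Complex.norm_eq_one_of_pow_eq_one h1 Nat.card_pos.ne']
  simp

theorem etaL_genChar (P : Subgroup G) (l : P →* ℂˣ) :
    IsGeneralizedCharacter P (fun u : P => etaL P l (u : G)) := by
  have : (fun u : P => etaL P l (u : G)) = fun u : P => ((l u : ℂˣ) : ℂ) := by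
    funext u; rw [etaL_mem _ u.2]
  rw [this]
  exact Cfsg.Agent.Lib.Helper32.genChar_of_irr (Cfsg.Agent.Lib.Helper83.isIrr_of_hom l)

theorem focal_le {P : Subgroup G} (F : FusionSystem P) : F.focalSubgroup ≤ P := by
  unfold FusionSystem.focalSubgroup
  rw [Subgroup.closure_le]
  rintro y ⟨Q, φ, x, hφ, rfl⟩
  have := F.le_of_mem hφ
  exact P.mul_mem (P.inv_mem (this.1 x.2)) (this.2 x)

theorem comm_mem_focal {P : Subgroup G} (F : FusionSystem P) {x y : G} (hx : x ∈ P) (hy : y ∈ P) :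
    x * y * x⁻¹ * y⁻¹ ∈ F.focalSubgroup := by
  apply Subgroup.subset_closure
  refine ⟨P, conjHom P y, ⟨x⁻¹, P.inv_mem hx⟩, F.conj_mem le_rfl hy, ?_⟩
  show _ = (x⁻¹)⁻¹ * (y * x⁻¹ * y⁻¹)
  group

end Eta

variable {p : ℕ} [Fact p.Prime] {M : Ideal AlgInt} (hM : IsPModular p M)
  {G : Type*} [Group G] [Fintype G]

/-- linear characters trivial on the focal subgroup are stable -/
theorem stableOn_etaL {B : Set (IrrCharacter G)} {P : Subgroup G}
    {e : Set (IrrCharacter (Cn P))} {F : FusionSystem P}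
    (hF : IsBlockFusionSystemOn p M B P e F) {l : P →* ℂˣ}
    (hl : ∀ n : P, (n : G) ∈ F.focalSubgroup → l n = 1) :
    StableOn p P (bl hM (Cn P) e) (etaL P l) := by
  intro R f g h2 h3 r hr
  have hmax := hF.1
  have he : IsBP p P (bl hM (Cn P) e) := isBP_of_isBrauerPair hM hmax.1.1
  have hφ : conjHom R g ∈ F.Hom R := by
    rw [hom_eq_of_isBlockFusionSystemOn hF (isBlockFusionSystemOn_bfs hM hmax) R, mem_bfs_hom_iff]
    refine ⟨g, f, fun x hx => ?_, h2, h3⟩
    rw [Cfsg.Agent.Lib.Helper87.ext_apply _ hx]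
    rfl
  have hrP : r ∈ P := h2.le hr
  have hgr : g * r * g⁻¹ ∈ P := (F.le_of_mem hφ).2 ⟨r, hr⟩
  have hfoc : r⁻¹ * (g * r * g⁻¹) ∈ F.focalSubgroup :=
    Subgroup.subset_closure ⟨R, conjHom R g, ⟨r, hr⟩, hφ, rfl⟩
  rw [etaL_mem _ hrP, etaL_mem _ hgr]
  have h4 := hl ⟨r⁻¹ * (g * r * g⁻¹), P.mul_mem (P.inv_mem hrP) hgr⟩ hfoc
  have h5 : (⟨g * r * g⁻¹, hgr⟩ : P)
      = ⟨r, hrP⟩ * ⟨r⁻¹ * (g * r * g⁻¹), P.mul_mem (P.inv_mem hrP) hgr⟩ := by
    apply Subtype.ext; simp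
  rw [h5, map_mul, h4, mul_one]

/-- the orbit counting theorem for the star action -/
theorem star_count (hub : HubStmt hM G) {B : Set (IrrCharacter G)} {P : Subgroup G}
    {e : Set (IrrCharacter (Cn P))} {F : FusionSystem P}
    (hF : IsBlockFusionSystemOn p M B P e F) (h : ℕ) (Z : Subgroup G) (hZ : Z ≤ P)
    (hnv : ∀ χ : IrrCharacter G, χ ∈ B → blockHeight p B (χ : G → ℂ) = h → ∀ z ∈ Z, ∀ x : G,
      (∃ k : ℕ, orderOf x = p ^ k) → ∀ b : Set (IrrCharacter (Cx x)),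
      IsInducedBlock M (Cx x) b B →
      ((∀ d ∈ P, d * z = z * d) → blockDefect p b = blockDefect p B) →
      ∃ s : Cx x, IsPRegular p s ∧ Th (Cx x) b x (χ : G → ℂ) s ≠ 0) :
    ((Z ⊓ F.focalSubgroup).subgroupOf Z).index ∣
      Nat.card {χ : IrrCharacter G // χ ∈ B ∧ blockHeight p B (χ : G → ℂ) = h} := by
  classical
  have hp : p.Prime := Fact.out
  have hmax0 := hF.1
  have hB : IsPBlock M B := hmax0.1.2.1
  have hmax : IsMaxBP p (blkR hM B) P (bl hM (Cn P) e) := isMaxBP_of_isMaximalBrauerPair hM hmax0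
  obtain ⟨X, hX1, hX2⟩ := exists_pReps (G := G) p
  have hX : PReps p X := ⟨hX1, hX2⟩
  set E := bl hM (Cn P) e with hE
  let Lc : (P →* ℂˣ) → ∀ x : G, Set (IrrCharacter (Cx x)) → ℂ :=
    fun l x b => etaL P l (Upt hM P E x b)
  have hUpt : ∀ x ∈ X, ∀ b, IsInducedBlock M (Cx x) b B → Upt hM P E x b ∈ P :=
    fun x hx b hb => Upt_mem hM hmax (hX.pow x hx) hb
  let Ω := {χ : IrrCharacter G // χ ∈ B ∧ blockHeight p B (χ : G → ℂ) = h}
  have : Finite (IrrCharacter G) := finite_irrCharacter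
  have key : ∀ l : P →* ℂˣ, (∀ n : P, (n : G) ∈ F.focalSubgroup → l n = 1) → ∀ ω : Ω,
      ∃ ω' : Ω, IsStar p M X (Lc l) ((ω : IrrCharacter G) : G → ℂ) ((ω' : IrrCharacter G) : G → ℂ) := by
    intro l hl ω
    obtain ⟨θ, hθ⟩ := exists_isStar (M := M) hp hX (Lc l) ((ω : IrrCharacter G) : G → ℂ)
    have hg := star_isGeneralizedCharacter hM hub hB hmax hX (stableOn_etaL hM hF hl)
      (etaL_genChar P l) ω.2.1 hθ
    obtain ⟨hirr, hmem, h1⟩ := hθ.irr hM hB ω.2.1 hX hg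
      (fun x hx b hb => etaL_mul_conj l (hUpt x hx b hb))
      (fun b _ => by
        show etaL P l (Upt hM P E 1 b) = 1
        rw [Upt_one, etaL_mem _ P.one_mem]
        have : (⟨1, P.one_mem⟩ : P) = 1 := rfl
        rw [this, map_one, Units.val_one])
    refine ⟨⟨⟨θ, hirr⟩, hmem, ?_⟩, hθ⟩
    rw [← ω.2.2]
    unfold blockHeight charDegree
    rw [show ((⟨θ, hirr⟩ : IrrCharacter G) : G → ℂ) 1 = θ 1 from rfl, h1]
  let act : (P →* ℂˣ) → Ω → Ω := fun l ω =>
    if hl : (∀ n : P, (n : G) ∈ F.focalSubgroup → l n = 1) then (key l hl ω).choose else ω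
  have hact : ∀ (l : P →* ℂˣ) (hl : ∀ n : P, (n : G) ∈ F.focalSubgroup → l n = 1) (ω : Ω),
      IsStar p M X (Lc l) ((ω : IrrCharacter G) : G → ℂ) ((act l ω : IrrCharacter G) : G → ℂ) := by
    intro l hl ω
    simp only [act, dif_pos hl]
    exact (key l hl ω).choose_spec
  have hext : ∀ {ω ω' : Ω}, ((ω : IrrCharacter G) : G → ℂ) = ((ω' : IrrCharacter G) : G → ℂ) →
      ω = ω' := fun hh => Subtype.ext (Subtype.ext hh)
  apply Cfsg.Agent.Lib.Helper81.orbit_count' P F.focalSubgroup Z (focal_le F) hZ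
    (fun x hx y hy => comm_mem_focal F hx hy) act
  · intro ω
    apply hext
    apply (hact 1 (fun _ _ => rfl) ω).unique hp hX
    apply (isStar_one hM X (irr_classFunction (ω : IrrCharacter G))).congr_ind hM hB ω.2.1 hX
    intro x hx b hb
    exact (etaL_one (hUpt x hx b hb)).symm
  · intro l m hl hm ω
    have hlm : ∀ n : P, (n : G) ∈ F.focalSubgroup → (l * m) n = 1 := by
      intro n hn; rw [MonoidHom.mul_apply, hl n hn, hm n hn, mul_one]
    apply hext
    apply (hact (l * m) hlm ω).unique hp hX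
    apply ((hact m hm ω).comp hM (hact l hl (act m ω))).congr_ind hM hB ω.2.1 hX
    intro x hx b hb
    exact (etaL_mul l m (hUpt x hx b hb)).symm
  · intro l hl ω hω z hz
    obtain ⟨x, hx, b, t, hind, hcar, htx, hdef⟩ := exists_cover hM hB hmax hX (hZ hz)
    obtain ⟨s, hs, hne⟩ := hnv ω ω.2.1 ω.2.2 z hz x (hX.pow x hx) b hind hdef
    have h1 := hact l hl ω
    rw [hω] at h1
    have h2 := h1.Th_eq hM hx hind.1 hs
    have h3 : Lc l x b = 1 := by
      have : (Lc l x b - 1) * Th (Cx x) b x ((ω : IrrCharacter G) : G → ℂ) s = 0 := by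
        rw [sub_mul, one_mul, ← h2, sub_self]
      rcases mul_eq_zero.1 this with h | h
      · exact sub_eq_zero.1 h
      · exact absurd h hne
    have h4 : Lc l x b = etaL P l (z : G) := by
      show etaL P l (Upt hM P E x b) = _
      rw [(stableOn_etaL hM hF hl).Upt_eq hM hcar, htx]
    rw [h4, etaL_mem _ z.2] at h3
    exact Units.ext h3

end Cfsg.Agent.Lib.Helper81
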