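import Cfsg.Agent.Lib.Helper81.SubsecRow
import Cfsg.Agent.Lib.Helper81.Subsections

set_option autoImplicit false
set_option linter.unusedSectionVars false
open Cfsg
open scoped ComplexConjugate
open Cfsg.Agent.Lib.Helper20

/-! The Broue-Puig star construction at the level of class functions: a class function is
prescribed on every `p`-section by rescaling the block components of a given class function. -/

namespace Cfsg.Agent.Lib.Helper81

section StarDef

variable {G : Type*} [Group G] [Fintype G] {p : ℕ} {M : Ideal AlgInt}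

/-- the centralizer of an element -/
abbrev Cx (x : G) : Subgroup G := Subgroup.centralizer ({x} : Set G)

theorem mem_Cx {x g : G} : g ∈ Cx x ↔ x * g = g * x := by
  rw [Subgroup.mem_centralizer_iff]
  constructor
  · intro h; exact h x rfl
  · intro h v hv; rw [Set.mem_singleton_iff.1 hv]; exact h

theorem Cx_comm (x : G) (c : Cx x) : x * (c : G) = (c : G) * x := mem_Cx.1 c.2

theorem self_mem_Cx (x : G) : x ∈ Cx x := mem_Cx.2 rfl

/-- representatives of the classes of `p`-elements -/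
structure PReps (p : ℕ) (X : Finset G) : Prop where
  pow : ∀ x ∈ X, ∃ k : ℕ, orderOf x = p ^ k
  rep : ∀ g : G, (∃ k : ℕ, orderOf g = p ^ k) → ∃! x, x ∈ X ∧ IsConj g x

/-- the rescaled section function -/
noncomputable def Fx (M : Ideal AlgInt) (x : G) (L : Set (IrrCharacter (Cx x)) → ℂ) (χ : G → ℂ) :
    Cx x → ℂ :=
  fun s => ∑ᶠ b : Set (IrrCharacter (Cx x)),
    by classical exact if IsPBlock M b then L b * Th (Cx x) b x χ s else 0

open Classical in
theorem Fx_eq (x : G) (L : Set (IrrCharacter (Cx x)) → ℂ) (χ : G → ℂ)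
    [Fintype (Set (IrrCharacter (Cx x)))] (s : Cx x) :
    Fx M x L χ s = ∑ b : Set (IrrCharacter (Cx x)),
      if IsPBlock M b then L b * Th (Cx x) b x χ s else 0 := by
  unfold Fx
  rw [finsum_eq_sum_of_fintype]

theorem Fx_classFunction (x : G) (L : Set (IrrCharacter (Cx x)) → ℂ) (χ : G → ℂ) :
    IsClassFunction (Cx x) (Fx M x L χ) := by
  classical
  have : Finite (IrrCharacter (Cx x)) := finite_irrCharacter
  have : Fintype (Set (IrrCharacter (Cx x))) := Fintype.ofFinite _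
  intro g h
  rw [Fx_eq, Fx_eq]
  apply Finset.sum_congr rfl; intro b _
  split_ifs
  · unfold Th; rw [blockPart_classFunction' b _ g h]
  · rfl

/-- extension by zero of the section function -/
noncomputable def FxG (M : Ideal AlgInt) (x : G) (L : Set (IrrCharacter (Cx x)) → ℂ) (χ : G → ℂ) :
    G → ℂ :=
  fun y => by classical exact if h : y ∈ Cx x then Fx M x L χ ⟨y, h⟩ else 0

theorem FxG_mem (x : G) (L : Set (IrrCharacter (Cx x)) → ℂ) (χ : G → ℂ) {y : G} (h : y ∈ Cx x) :
    FxG M x L χ y = Fx M x L χ ⟨y, h⟩ := by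
  unfold FxG; rw [dif_pos h]

theorem FxG_conj (x : G) (L : Set (IrrCharacter (Cx x)) → ℂ) (χ : G → ℂ) {y c : G}
    (hc : c ∈ Cx x) (hy : y ∈ Cx x) : FxG M x L χ (c * y * c⁻¹) = FxG M x L χ y := by
  rw [FxG_mem x L χ hy, FxG_mem x L χ ((Cx x).mul_mem ((Cx x).mul_mem hc hy) ((Cx x).inv_mem hc))]
  exact Fx_classFunction x L χ ⟨y, hy⟩ ⟨c, hc⟩

/-- `θ` is the star of `χ` with coefficients `L` -/
def IsStar (p : ℕ) (M : Ideal AlgInt) (X : Finset G)
    (L : ∀ x : G, Set (IrrCharacter (Cx x)) → ℂ) (χ θ : G → ℂ) : Prop :=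
  IsClassFunction G θ ∧
    ∀ x ∈ X, ∀ s : Cx x, IsPRegular p s → θ (x * (s : G)) = Fx M x (L x) χ s

theorem exists_section (hp : p.Prime) {X : Finset G} (hX : PReps p X) (g : G) :
    ∃ x ∈ X, ∃ t : G, IsPPart p (t * g * t⁻¹) x := by
  obtain ⟨u, hu⟩ := exists_isPPart hp g
  obtain ⟨x, ⟨hx, hc⟩, -⟩ := hX.rep u hu.choose_spec.2.2.1
  obtain ⟨t, ht⟩ := isConj_iff.1 hc
  exact ⟨x, hx, t, ht ▸ isPPart_conj hu t⟩

theorem isPPart_section {x y : G} (h : IsPPart p y x) :
    x⁻¹ * y ∈ Cx x ∧ ¬ p ∣ orderOf (x⁻¹ * y) := by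
  obtain ⟨z, h1, h2, -, h4⟩ := h
  have : x⁻¹ * y = z := by rw [← h1]; group
  rw [this]
  exact ⟨mem_Cx.2 h2, h4⟩

theorem section_wd (hp : p.Prime) {X : Finset G} (hX : PReps p X)
    (L : ∀ x : G, Set (IrrCharacter (Cx x)) → ℂ) (χ : G → ℂ) {g x x' t t' : G}
    (hx : x ∈ X) (hx' : x' ∈ X) (h : IsPPart p (t * g * t⁻¹) x)
    (h' : IsPPart p (t' * g * t'⁻¹) x') :
    FxG M x (L x) χ (x⁻¹ * (t * g * t⁻¹)) = FxG M x' (L x') χ (x'⁻¹ * (t' * g * t'⁻¹)) := by
  -- the `p`-part of `g`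
  have h1 : IsPPart p g (t⁻¹ * x * t) := by
    have := isPPart_conj h t⁻¹
    have e1 : t⁻¹ * (t * g * t⁻¹) * t⁻¹⁻¹ = g := by group
    rw [e1, inv_inv] at this
    exact this
  have h2 : IsPPart p g (t'⁻¹ * x' * t') := by
    have := isPPart_conj h' t'⁻¹
    have e1 : t'⁻¹ * (t' * g * t'⁻¹) * t'⁻¹⁻¹ = g := by group
    rw [e1, inv_inv] at this
    exact this
  have h3 := isPPart_unique hp h1 h2
  have hxx : x = x' := by
    obtain ⟨w, -, hw⟩ := hX.rep x (hX.pow x hx)
    rw [hw x ⟨hx, IsConj.refl x⟩]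
    symm
    apply hw x' ⟨hx', ?_⟩
    rw [isConj_iff]
    refine ⟨t' * t⁻¹, ?_⟩
    calc t' * t⁻¹ * x * (t' * t⁻¹)⁻¹ = t' * (t⁻¹ * x * t) * t'⁻¹ := by group
      _ = x' := by rw [h3]; group
  subst hxx
  have hc : t' * t⁻¹ ∈ Cx x := by
    rw [mem_Cx]
    have : t' * (t⁻¹ * x * t) * t'⁻¹ = x := by rw [h3]; group
    calc x * (t' * t⁻¹) = (t' * (t⁻¹ * x * t) * t'⁻¹) * (t' * t⁻¹) := by rw [this]
      _ = t' * t⁻¹ * x := by group
  have e : x⁻¹ * (t' * g * t'⁻¹) = (t' * t⁻¹) * (x⁻¹ * (t * g * t⁻¹)) * (t' * t⁻¹)⁻¹ := by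
    have hc' : (t' * t⁻¹) * x⁻¹ = x⁻¹ * (t' * t⁻¹) := by
      have := mem_Cx.1 hc
      calc (t' * t⁻¹) * x⁻¹ = x⁻¹ * (x * (t' * t⁻¹)) * x⁻¹ := by group
        _ = x⁻¹ * ((t' * t⁻¹) * x) * x⁻¹ := by rw [this]
        _ = x⁻¹ * (t' * t⁻¹) := by group
    calc x⁻¹ * (t' * g * t'⁻¹) = (x⁻¹ * (t' * t⁻¹)) * (t * g * t⁻¹) * (t' * t⁻¹)⁻¹ := by group
      _ = (t' * t⁻¹) * (x⁻¹ * (t * g * t⁻¹)) * (t' * t⁻¹)⁻¹ := by rw [← hc']; group
  rw [e, FxG_conj x (L x) χ hc (isPPart_section h).1]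

theorem exists_isStar (hp : p.Prime) {X : Finset G} (hX : PReps p X)
    (L : ∀ x : G, Set (IrrCharacter (Cx x)) → ℂ) (χ : G → ℂ) : ∃ θ, IsStar p M X L χ θ := by
  choose xx hxx tt htt using exists_section hp hX
  refine ⟨fun g => FxG M (xx g) (L (xx g)) χ ((xx g)⁻¹ * (tt g * g * (tt g)⁻¹)), ?_, ?_⟩
  · intro g w
    show FxG M (xx (w * g * w⁻¹)) (L (xx (w * g * w⁻¹))) χ
      ((xx (w * g * w⁻¹))⁻¹ * (tt (w * g * w⁻¹) * (w * g * w⁻¹) * (tt (w * g * w⁻¹))⁻¹)) = _
    have h1 := htt (w * g * w⁻¹)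
    have e : tt (w * g * w⁻¹) * (w * g * w⁻¹) * (tt (w * g * w⁻¹))⁻¹
        = (tt (w * g * w⁻¹) * w) * g * (tt (w * g * w⁻¹) * w)⁻¹ := by group
    rw [e] at h1 ⊢
    exact section_wd hp hX L χ (hxx _) (hxx _) h1 (htt g)
  · intro x hx s hs
    have h1 : IsPPart p (1 * (x * (s : G)) * 1⁻¹) x := by
      rw [one_mul, inv_one, mul_one]
      exact ⟨s, rfl, Cx_comm x s, hX.pow x hx, by
        unfold IsPRegular at hs; rwa [Subgroup.orderOf_coe]⟩
    have h2 := section_wd (M := M) hp hX L χ (hxx _) hx (htt (x * (s : G))) h1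
    show FxG M (xx (x * (s : G))) (L (xx (x * (s : G)))) χ _ = _
    rw [h2]
    have e : x⁻¹ * (1 * (x * (s : G)) * 1⁻¹) = (s : G) := by group
    rw [e, FxG_mem x (L x) χ s.2]

/-- class functions are determined by their values on the sections -/
theorem classFunction_ext_sections (hp : p.Prime) {X : Finset G} (hX : PReps p X) {θ θ' : G → ℂ}
    (hθ : IsClassFunction G θ) (hθ' : IsClassFunction G θ')
    (h : ∀ x ∈ X, ∀ s : Cx x, IsPRegular p s → θ (x * (s : G)) = θ' (x * (s : G))) : θ = θ' := by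
  funext g
  obtain ⟨x, hx, t, ht⟩ := exists_section hp hX g
  have h1 := isPPart_section ht
  have h2 := h x hx ⟨_, h1.1⟩ (by unfold IsPRegular; rw [Subgroup.orderOf_mk]; exact h1.2)
  have e : x * (x⁻¹ * (t * g * t⁻¹)) = t * g * t⁻¹ := by group
  simp only [e] at h2
  rw [hθ g t, hθ' g t] at h2
  exact h2

theorem IsStar.unique (hp : p.Prime) {X : Finset G} (hX : PReps p X)
    {L : ∀ x : G, Set (IrrCharacter (Cx x)) → ℂ} {χ θ θ' : G → ℂ} (h : IsStar p M X L χ θ)
    (h' : IsStar p M X L χ θ') : θ = θ' :=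
  classFunction_ext_sections hp hX h.1 h'.1 (fun x hx s hs => by rw [h.2 x hx s hs, h'.2 x hx s hs])


end StarDef

section BP

variable {H : Type*} [Group H] [Fintype H] {p : ℕ} {M : Ideal AlgInt}

theorem blockPart_congr_reg (hM : IsPModular p M) {b : Set (IrrCharacter H)} (hb : IsPBlock M b)
    {f f' : H → ℂ} (h : ∀ s, IsPRegular p s → f s = f' s) {s : H} (hs : IsPRegular p s) :
    blockPart b f s = blockPart b f' s := by
  classical
  rw [blockPart_regular_eq hM b hb f hs, blockPart_regular_eq hM b hb f' hs]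
  congr 1
  apply Finset.sum_congr rfl; intro w _
  rw [pRegularPart_eq, pRegularPart_eq]
  by_cases hw : IsPRegular p w
  · simp only [if_pos hw, h w hw]
  · simp only [if_neg hw]

theorem blockPart_sum_smul (b : Set (IrrCharacter H)) {ι : Type*} (S : Finset ι) (c : ι → ℂ)
    (f : ι → H → ℂ) : blockPart b (∑ i ∈ S, c i • f i) = ∑ i ∈ S, c i • blockPart b (f i) := by
  funext x
  rw [blockPart_eq, Finset.sum_apply]
  simp only [Pi.smul_apply, smul_eq_mul, blockPart_eq, Finset.sum_apply, Finset.mul_sum]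
  rw [Finset.sum_comm]
  apply Finset.sum_congr rfl; intro i _
  apply Finset.sum_congr rfl; intro y _
  ring

theorem classInner_blockPart_of_not_mem (B : Set (IrrCharacter H)) (θ : H → ℂ)
    {ψ : IrrCharacter H} (hψ : ψ ∉ B) : classInner (blockPart B θ) (ψ : H → ℂ) = 0 := by
  classical
  have : Finite (IrrCharacter H) := finite_irrCharacter
  have : Fintype (IrrCharacter H) := Fintype.ofFinite _
  rw [blockPart_eq_sum, classInner_sum_left]
  apply Finset.sum_eq_zero; intro χ _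
  rw [classInner_smul_left]
  by_cases hχ : χ ∈ B
  · rw [classInner_irr_ne χ.2 ψ.2 (fun h => hψ (by rw [← Subtype.ext h]; exact hχ)), mul_zero]
  · rw [if_neg hχ, zero_mul]

theorem isPBlock_eq_of_mem (hM : IsPModular p M) {b b' : Set (IrrCharacter H)} (hb : IsPBlock M b)
    (hb' : IsPBlock M b') {χ : IrrCharacter H} (h : χ ∈ b) (h' : χ ∈ b') : b = b' := by
  rw [isPBlock_eq_blockOf hM hb h, isPBlock_eq_blockOf hM hb' h']

theorem blockPart_blockPart_self (b : Set (IrrCharacter H)) (f : H → ℂ) :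
    blockPart b (blockPart b f) = blockPart b f := by
  funext x
  rw [blockPart_eq_finsum, blockPart_eq_finsum]
  apply finsum_congr; intro χ
  apply finsum_congr; intro hχ
  rw [classInner_blockPart b f hχ]

theorem blockPart_blockPart_ne (hM : IsPModular p M) {b b' : Set (IrrCharacter H)}
    (hb : IsPBlock M b) (hb' : IsPBlock M b') (hne : b ≠ b') (f : H → ℂ) :
    blockPart b (blockPart b' f) = 0 := by
  classical
  funext x
  rw [blockPart_eq_finsum]
  have : ∀ χ : IrrCharacter H, (∑ᶠ (_ : χ ∈ b), classInner (blockPart b' f) (χ : H → ℂ) *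
      (χ : H → ℂ) x) = 0 := by
    intro χ
    by_cases hχ : χ ∈ b
    · rw [finsum_eq_if, if_pos hχ, classInner_blockPart_of_not_mem b' f
        (fun h => hne (isPBlock_eq_of_mem hM hb hb' hχ h)), zero_mul]
    · rw [finsum_eq_if, if_neg hχ]
  simp only [this, finsum_zero, Pi.zero_apply]

theorem classInner_pReg_blockPart_blockPart_ne (hM : IsPModular p M) {b b' : Set (IrrCharacter H)}
    (hb : IsPBlock M b) (hb' : IsPBlock M b') (hne : b ≠ b') (f f' : H → ℂ) :
    classInner (pRegularPart p (blockPart b f)) (blockPart b' f') = 0 := by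
  classical
  have : Finite (IrrCharacter H) := finite_irrCharacter
  have : Fintype (IrrCharacter H) := Fintype.ofFinite _
  rw [blockPart_eq_sum b' f', classInner_sum_right]
  apply Finset.sum_eq_zero; intro ζ _
  rw [classInner_smul_right]
  by_cases hζ : ζ ∈ b'
  · rw [classInner_pReg_blockPart_eq_zero hM hb f
      (fun h => hne (isPBlock_eq_of_mem hM hb hb' h hζ)), mul_zero]
  · rw [if_neg hζ]; simp

end BP

section StarProps

variable {G : Type*} [Group G] [Fintype G] {p : ℕ} {M : Ideal AlgInt}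

open Classical in
theorem Fx_eq_sum (x : G) (L : Set (IrrCharacter (Cx x)) → ℂ) (χ : G → ℂ)
    [Fintype (Set (IrrCharacter (Cx x)))] :
    Fx M x L χ = ∑ b : Set (IrrCharacter (Cx x)),
      (if IsPBlock M b then L b else 0) • Th (Cx x) b x χ := by
  funext s
  rw [Fx_eq, Finset.sum_apply]
  apply Finset.sum_congr rfl; intro b _
  rw [Pi.smul_apply, smul_eq_mul]
  split_ifs
  · rfl
  · rw [zero_mul]

/-- the block components of the star -/
theorem IsStar.Th_eq (hM : IsPModular p M) {X : Finset G}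
    {L : ∀ x : G, Set (IrrCharacter (Cx x)) → ℂ} {χ θ : G → ℂ} (h : IsStar p M X L χ θ) {x : G}
    (hx : x ∈ X) {b : Set (IrrCharacter (Cx x))} (hb : IsPBlock M b) {s : Cx x}
    (hs : IsPRegular p s) : Th (Cx x) b x θ s = L x b * Th (Cx x) b x χ s := by
  classical
  have : Finite (IrrCharacter (Cx x)) := finite_irrCharacter
  have : Fintype (Set (IrrCharacter (Cx x))) := Fintype.ofFinite _
  have h1 : Th (Cx x) b x θ s = blockPart b (Fx M x (L x) χ) s := by
    unfold Th
    exact blockPart_congr_reg hM hb (fun c hc => h.2 x hx c hc) hs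
  rw [h1, Fx_eq_sum, blockPart_sum_smul, Finset.sum_apply, Finset.sum_eq_single b]
  · rw [if_pos hb, Pi.smul_apply, smul_eq_mul]
    unfold Th
    rw [blockPart_blockPart_self]
  · intro b' _ hne
    rw [Pi.smul_apply, smul_eq_mul]
    by_cases hb' : IsPBlock M b'
    · unfold Th
      rw [blockPart_blockPart_ne hM hb hb' (Ne.symm hne)]; simp
    · rw [if_neg hb', zero_mul]
  · intro h; exact absurd (Finset.mem_univ _) h

theorem shiftCx_classFunction {χ : G → ℂ} (hχ : IsClassFunction G χ) (x : G) :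
    IsClassFunction (Cx x) (fun c : Cx x => χ (x * (c : G))) := by
  intro c t
  show χ (x * ((t : G) * (c : G) * (t : G)⁻¹)) = χ (x * (c : G))
  rw [← hχ (x * (c : G)) (t : G)]
  have : x * ((t : G) * (c : G) * (t : G)⁻¹) = (t : G) * (x * (c : G)) * (t : G)⁻¹ := by
    calc x * ((t : G) * (c : G) * (t : G)⁻¹) = (x * (t : G)) * (c : G) * (t : G)⁻¹ := by group
      _ = ((t : G) * x) * (c : G) * (t : G)⁻¹ := by rw [Cx_comm x t]
      _ = (t : G) * (x * (c : G)) * (t : G)⁻¹ := by group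
  rw [this]

/-- every class function is its own star with coefficients `1` -/
theorem isStar_one (hM : IsPModular p M) (X : Finset G) {χ : G → ℂ} (hχ : IsClassFunction G χ) :
    IsStar p M X (fun _ _ => 1) χ χ := by
  classical
  refine ⟨hχ, fun x _ s _ => ?_⟩
  have : Finite (IrrCharacter (Cx x)) := finite_irrCharacter
  have : Fintype (Set (IrrCharacter (Cx x))) := Fintype.ofFinite _
  rw [Fx_eq, eq_sum_blockPart hM (shiftCx_classFunction hχ x) s]
  apply Finset.sum_congr rfl; intro b _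
  split_ifs
  · rw [one_mul]; rfl
  · rfl

open Classical in
/-- the inner product of two stars -/
theorem IsStar.classInner_eq (hM : IsPModular p M) {X : Finset G} (hX : PReps p X)
    {L L' : ∀ x : G, Set (IrrCharacter (Cx x)) → ℂ} {χ χ' θ θ' : G → ℂ}
    (h : IsStar p M X L χ θ) (h' : IsStar p M X L' χ' θ')
    [∀ x : G, Fintype (Set (IrrCharacter (Cx x)))] :
    classInner θ θ' = ∑ x ∈ X, ∑ b : Set (IrrCharacter (Cx x)),
      if IsPBlock M b then L x b * conj (L' x b) * mS p (Cx x) b x χ χ' else 0 := by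
  have hf : IsClassFunction G (fun g => θ g * conj (θ' g)) := by
    intro g t
    show θ (t * g * t⁻¹) * conj (θ' (t * g * t⁻¹)) = _
    rw [h.1 g t, h'.1 g t]
  unfold classInner
  rw [sum_eq_sum_sections hM.1 hf X hX.pow hX.rep, Finset.mul_sum]
  apply Finset.sum_congr rfl; intro x hx
  have hG : (Nat.card G : ℂ) ≠ 0 := card_ne_zero_complex
  have hC : (Nat.card (Cx x) : ℂ) ≠ 0 := card_ne_zero_complex
  have hidx : (Nat.card G : ℂ)⁻¹ * ((Cx x).index : ℂ) = (Nat.card (Cx x) : ℂ)⁻¹ := by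
    have := (Cx x).card_mul_index
    have h2 : (Nat.card (Cx x) : ℂ) * ((Cx x).index : ℂ) = (Nat.card G : ℂ) := by exact_mod_cast this
    have hi : ((Cx x).index : ℂ) ≠ 0 := by
      intro h0; rw [h0, mul_zero] at h2; exact hG h2.symm
    rw [← h2]; field_simp
  rw [← mul_assoc, hidx]
  have h1 : (Nat.card (Cx x) : ℂ)⁻¹ * ∑ y : Cx x,
      (if IsPRegular p y then θ (x * (y : G)) * conj (θ' (x * (y : G))) else 0)
      = classInner (pRegularPart p (Fx M x (L x) χ)) (Fx M x (L' x) χ') := by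
    unfold classInner
    congr 1
    apply Finset.sum_congr rfl; intro y _
    rw [pRegularPart_eq]
    by_cases hy : IsPRegular p y
    · simp only [if_pos hy]
      rw [h.2 x hx y hy, h'.2 x hx y hy]
    · simp only [if_neg hy, zero_mul]
  rw [h1, Fx_eq_sum, Fx_eq_sum, pRegularPart_sum, classInner_sum_left]
  apply Finset.sum_congr rfl; intro b _
  rw [classInner_sum_right, pRegularPart_smul, Finset.sum_eq_single b]
  · rw [classInner_smul_left, classInner_smul_right]
    split_ifs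
    · unfold mS; ring
    · simp
  · intro b' _ hne
    rw [classInner_smul_left, classInner_smul_right]
    by_cases hb : IsPBlock M b
    · by_cases hb' : IsPBlock M b'
      · unfold Th
        rw [classInner_pReg_blockPart_blockPart_ne hM hb hb' (Ne.symm hne)]; simp
      · rw [if_neg hb']; simp
    · rw [if_neg hb]; simp
  · intro h; exact absurd (Finset.mem_univ _) h

end StarProps

end Cfsg.Agent.Lib.Helper81
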