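import Cfsg.Agent.Lib.Helper81.StarLift
import Cfsg.Agent.Lib.Helper83.Star.HubStmt
import Cfsg.Agent.Lib.Helper5.Coherent2

set_option autoImplicit false
set_option linter.unusedSectionVars false
set_option linter.style.haveILetI false
open Cfsg
open scoped ComplexConjugate
open Cfsg.Agent.Lib.Helper20 Cfsg.Agent.Lib.Helper80
open Cfsg.Agent.Lib.Helper80.GA Cfsg.Agent.Lib.Helper5 Cfsg.Agent.Lib.Helper78
open Cfsg.Agent.Lib.Helper83.Star

/-! Application of the hub (integrality): the star of a character of `B` by a stable generalized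
character of `P` is a generalized character. -/

namespace Cfsg.Agent.Lib.Helper81

variable {p : ℕ} [Fact p.Prime] {M : Ideal AlgInt} (hM : IsPModular p M)
  {G : Type*} [Group G] [Fintype G]

/-- the coefficient function of the hub -/
noncomputable def LL (P : Subgroup G) (e : GA (Kr hM) G) (η : G → ℂ) (v : G)
    (β : GA (Kr hM) G) : ℂ := by
  classical
  exact dite (∃ g, BPLE p (cS g (Subgroup.zpowers v), cj g β) (P, e))
    (fun h => η (h.choose * v * (h.choose)⁻¹)) (fun _ => 0)

theorem LL_eq {P : Subgroup G} {e : GA (Kr hM) G} {η : G → ℂ} (hη : StableOn p P e η) {v : G}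
    {β : GA (Kr hM) G} {g : G} (h : BPLE p (cS g (Subgroup.zpowers v), cj g β) (P, e)) :
    LL hM P e η v β = η (g * v * g⁻¹) := by
  have hex : ∃ g, BPLE p (cS g (Subgroup.zpowers v), cj g β) (P, e) := ⟨g, h⟩
  unfold LL
  rw [dif_pos hex]
  have h' := hex.choose_spec
  set g' := hex.choose
  have h1 := hη (cS g (Subgroup.zpowers v)) (cj g β) (g' * g⁻¹) h (by
    rw [cS_cS, cj_cj, inv_mul_cancel_right]; exact h') (g * v * g⁻¹) (by
      rw [cS_zpowers]; exact Subgroup.mem_zpowers _)
  rw [← h1]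
  congr 1
  group

theorem LL_eq_zero {P : Subgroup G} {e : GA (Kr hM) G} {η : G → ℂ} {v : G}
    {β : GA (Kr hM) G} (h : ¬ ∃ g, BPLE p (cS g (Subgroup.zpowers v), cj g β) (P, e)) :
    LL hM P e η v β = 0 := by
  unfold LL
  rw [dif_neg h]

include hM in
theorem Th_eq_zero_of_not_induced {B : Set (IrrCharacter G)} (hB : IsPBlock M B)
    {χ : IrrCharacter G} (hχ : χ ∈ B) {x : G} (hx : ∃ k : ℕ, orderOf x = p ^ k)
    {b : Set (IrrCharacter (Cx x))} (hb : IsPBlock M b) (hnot : ¬ IsInducedBlock M (Cx x) b B)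
    {s : Cx x} (hs : IsPRegular p s) : Th (Cx x) b x (χ : G → ℂ) s = 0 :=
  second_main_char hM x hx B hB χ hχ b (inducedBlockDefined_centralizer hM x hx b hb) hnot s hs

theorem exists_orderOf_of_isPGroup_zpowers {v : G} (hv : IsPGroup p (Subgroup.zpowers v)) :
    ∃ k : ℕ, orderOf v = p ^ k := by
  obtain ⟨k, hk⟩ := hv ⟨v, Subgroup.mem_zpowers v⟩
  have h1 : v ^ (p ^ k) = 1 := by simpa using congrArg Subtype.val hk
  obtain ⟨m, _, hm⟩ := (Nat.dvd_prime_pow Fact.out).1 (orderOf_dvd_of_pow_eq_one h1)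
  exact ⟨m, hm⟩

/-- **integrality of the star**, from the hub -/
theorem star_isGeneralizedCharacter (hub : HubStmt hM G) {B : Set (IrrCharacter G)}
    (hB : IsPBlock M B) {P : Subgroup G} {e : GA (Kr hM) G} (hmax : IsMaxBP p (blkR hM B) P e)
    {X : Finset G} (hX : PReps p X) {η : G → ℂ} (hst : StableOn p P e η)
    (hηg : IsGeneralizedCharacter P (fun u : P => η (u : G))) {χ : IrrCharacter G} (hχ : χ ∈ B)
    {θ : G → ℂ} (hθ : IsStar p M X (fun x b => η (Upt hM P e x b)) (χ : G → ℂ) θ) :
    IsGeneralizedCharacter G θ := by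
  apply hub (χ : G → ℂ) θ (LL hM P e η) (isCharacter_of_isIrrCharacter χ.2) hθ.1
  · -- the local condition
    intro v hv bh hsupp hfix hidem hblk s hs hsreg
    have hvp := exists_orderOf_of_isPGroup_zpowers hv
    obtain ⟨x, ⟨hx, hc⟩, -⟩ := hX.rep v hvp
    obtain ⟨t, ht⟩ := isConj_iff.1 hc
    have hCx : cS t (Cn (Subgroup.zpowers v)) = Cx x := by
      rw [cS_Cn, cS_zpowers, ht, ← Cx_eq]
    have hfix' : FixBy (Cx x) (cj t bh) := by rw [← hCx]; exact hfix.cj t
    have hidem' : cj t bh * cj t bh = cj t bh := by rw [← cj_mul, hidem]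
    have hblk' : IsBlk (Cx x) (cj t (redO hM bh)) := by rw [← hCx]; exact hblk.cj t
    obtain ⟨b, hb, hbeq⟩ := exists_block_of_isBlk_sub hM _ hblk'
    have hbh : cj t bh = blO hM (Cx x) hb :=
      eq_blO_of_redO_eq hM (Cx x) hb hfix' hidem' (by rw [redO_cj, hbeq])
    have hs' : t * s * t⁻¹ ∈ Cx x := by
      rw [← hCx, mem_cS]
      have : t⁻¹ * (t * s * t⁻¹) * t = s := by group
      rw [this]; exact hs
    have hs'reg : IsPRegular p (⟨t * s * t⁻¹, hs'⟩ : Cx x) := by
      unfold IsPRegular at hsreg ⊢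
      rw [Subgroup.orderOf_mk]
      have : orderOf (t * s * t⁻¹) = orderOf s := by
        have := orderOf_injective (MulAut.conj t).toMonoidHom (MulAut.conj t).injective s
        simpa using this
      rw [this]; exact hsreg
    have hconj : ∀ ψ : G → ℂ, IsClassFunction G ψ →
        ev hM ψ (of (v * s) * bh) = Th (Cx x) b x ψ ⟨t * s * t⁻¹, hs'⟩ := by
      intro ψ hψ
      rw [← ev_cj hM ψ hψ t, cj_mul, hbh, ← ev_of_mul_blO hM hb hψ]
      congr 2
      unfold cj
      rw [of_mul_of, of_mul_of]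
      have e1 : t * (v * s) * t⁻¹ = x * (t * s * t⁻¹) := by rw [← ht]; group
      rw [e1]
    rw [hconj θ hθ.1, hconj _ (irr_classFunction χ), hθ.Th_eq hM hx hb hs'reg]
    by_cases hind : IsInducedBlock M (Cx x) b B
    · have hcar := carries_gam hM (exists_carries hM hmax (hX.pow x hx) hind)
      have hcar' : BPLE p (cS (gam hM P e x b * t) (Subgroup.zpowers v),
          cj (gam hM P e x b * t) (redO hM bh)) (P, e) := by
        rw [← cS_cS, ← cj_cj, hbeq, cS_zpowers t, ht]
        exact hcar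
      rw [LL_eq hM hst hcar']
      congr 2
      unfold Upt
      generalize gam hM P e x b = γ
      rw [← ht]; group
    · rw [Th_eq_zero_of_not_induced hM hB hχ (hX.pow x hx) hb hind hs'reg, mul_zero, mul_zero]
  · -- the local characters
    intro Q f hQf β hβ
    by_cases hbp : IsBPOf p (blkR hM B) Q f
    · obtain ⟨g, hg⟩ := hmax.exists_conj_le hbp
      have hgQ : ∀ v : Q, g * (v : G) * g⁻¹ ∈ P := by
        intro v
        apply BPLE.le hg
        show g * (v : G) * g⁻¹ ∈ cS g Q
        rw [mem_cS]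
        have : g⁻¹ * (g * (v : G) * g⁻¹) * g = v := by group
        rw [this]; exact v.2
      let φ : Q →* P :=
        { toFun := fun v => ⟨g * (v : G) * g⁻¹, hgQ v⟩
          map_one' := by apply Subtype.ext; simp
          map_mul' := fun a b => by apply Subtype.ext; simp [mul_assoc] }
      have h1 := genChar_comp_hom hηg φ
      have h2 : (fun v : Q => LL hM P e η (v : G) (β v)) = fun v : Q => η ((φ v : P) : G) := by
        funext v
        have h3 : BPLE p (cS g (Subgroup.zpowers (v : G)), cj g (β v)) (P, e) :=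
          ((hβ v).cj g).trans hg
        rw [LL_eq hM hst h3]
        rfl
      rw [h2]
      exact h1
    · have h2 : (fun v : Q => LL hM P e η (v : G) (β v)) = 0 := by
        funext v
        apply LL_eq_zero
        rintro ⟨g, hg⟩
        apply hbp
        have h3 : IsBPOf p (blkR hM B) (cS g (Subgroup.zpowers (v : G))) (cj g (β v)) :=
          (hg.isBPOf_iff).1 hmax.1
        have h4 := h3.cj g⁻¹
        rw [cS_cS, cj_cj, inv_mul_cancel, cS_one, one_cj] at h4
        exact ((hβ v).isBPOf_iff).2 h4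
      rw [h2]
      exact ⟨0, 0, isCharacter_zero, isCharacter_zero, by simp⟩

end Cfsg.Agent.Lib.Helper81
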