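import Cfsg.Agent.Lib.Helper81.StarSys
import Cfsg.Agent.Lib.Helper81.TraceLemma
import Cfsg.Agent.Lib.Helper83.Star.Base

set_option autoImplicit false
set_option linter.unusedSectionVars false
set_option linter.style.haveILetI false
open Cfsg
open scoped ComplexConjugate
open Cfsg.Agent.Lib.Helper20 Cfsg.Agent.Lib.Helper80
open Cfsg.Agent.Lib.Helper80.GA Cfsg.Agent.Lib.Helper5 Cfsg.Agent.Lib.Helper78
open Cfsg.Agent.Lib.Helper83.Star

/-! Block idempotents over the local ring: uniqueness of lifts, evaluation = block part. -/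

namespace Cfsg.Agent.Lib.Helper81

variable {p : ℕ} [Fact p.Prime] {M : Ideal AlgInt} (hM : IsPModular p M)
  {G : Type*} [Group G] [Fintype G]

/-- an idempotent of `𝒪G` with zero reduction vanishes -/
theorem eq_zero_of_idem_of_redO_eq_zero {e : GA (locRing hM) G} (he : e * e = e)
    (h0 : redO hM e = 0) : e = 0 := by
  classical
  let U : Matrix G G ℂ := fun g h => (((1 - e : GA (locRing hM) G) (g * h⁻¹) : locRing hM) : ℂ)
  have hsm : ∀ g, MemLocalIdeal M ((e g : locRing hM) : ℂ) := by
    intro g
    rw [← resR_eq_zero_iff, ← redO_apply, h0]; rfl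
  have hU : U.det ≠ 0 := by
    apply det_ne_zero_of_congr_one hM
    intro i j
    have : (U - 1) i j = -((e (i * j⁻¹) : locRing hM) : ℂ) := by
      rw [Matrix.sub_apply, Matrix.one_apply]
      show (((1 - e : GA (locRing hM) G) (i * j⁻¹) : locRing hM) : ℂ) - _ = _
      rw [GA.sub_apply, GA.one_apply]
      by_cases hij : i = j
      · subst hij; simp
      · have : i * j⁻¹ ≠ 1 := fun h => hij (mul_inv_eq_one.1 h)
        rw [if_neg this, if_neg hij]; simp
    rw [this]
    exact memLocalIdeal_neg (hsm _)
  have hmv : U.mulVec (fun h => ((e h : locRing hM) : ℂ)) = 0 := by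
    funext g
    have h1 : ((1 - e) * e : GA (locRing hM) G) = 0 := by rw [sub_mul, one_mul, he, sub_self]
    have h2 := congrArg (fun a : GA (locRing hM) G => ((a g : locRing hM) : ℂ)) h1
    simp only [GA.mul_apply] at h2
    show ∑ h, U g h * ((e h : locRing hM) : ℂ) = 0
    rw [← Equiv.sum_comp ((Equiv.inv G).trans (Equiv.mulRight g))]
    have h3 : (((0 : GA (locRing hM) G) g : locRing hM) : ℂ) = 0 := rfl
    rw [h3] at h2
    rw [← h2]
    push_cast
    apply Finset.sum_congr rfl; intro x _
    show (((1 - e : GA (locRing hM) G) (g * (x⁻¹ * g)⁻¹) : locRing hM) : ℂ) * _ = _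
    have : g * (x⁻¹ * g)⁻¹ = x := by group
    rw [this]; rfl
  have h4 := Matrix.eq_zero_of_mulVec_eq_zero hU hmv
  ext g
  exact congrFun h4 g

/-- commuting idempotents of `𝒪G` with the same reduction are equal -/
theorem eq_of_idem_of_redO_eq {e f : GA (locRing hM) G} (he : e * e = e) (hf : f * f = f)
    (hc : e * f = f * e) (h : redO hM e = redO hM f) : e = f := by
  have h1 : e - e * f = 0 := by
    apply eq_zero_of_idem_of_redO_eq_zero hM
    · have : (e - e * f) * (e - e * f) = e * e - e * (e * f) - (e * f) * e + e * f * (e * f) := by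
        noncomm_ring
      rw [this]
      have e1 : e * (e * f) = e * f := by rw [← mul_assoc, he]
      have e2 : e * f * e = e * f := by rw [mul_assoc, ← hc, ← mul_assoc, he]
      have e3 : e * f * (e * f) = e * f := by rw [← mul_assoc, e2, mul_assoc, hf]
      rw [e1, e2, e3, he]; abel
    · rw [map_sub, map_mul, ← h, ← map_mul, he, sub_self]
  have h2 : f - e * f = 0 := by
    apply eq_zero_of_idem_of_redO_eq_zero hM
    · have : (f - e * f) * (f - e * f) = f * f - f * (e * f) - (e * f) * f + e * f * (e * f) := by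
        noncomm_ring
      rw [this]
      have e1 : f * (e * f) = e * f := by rw [← mul_assoc, ← hc, mul_assoc, hf]
      have e2 : e * f * f = e * f := by rw [mul_assoc, hf]
      have e2' : e * f * e = e * f := by rw [mul_assoc, ← hc, ← mul_assoc, he]
      have e3 : e * f * (e * f) = e * f := by rw [← mul_assoc, e2', mul_assoc, hf]
      rw [e1, e2, e3, hf]; abel
    · rw [map_sub, map_mul, h, ← map_mul, hf, sub_self]
  rw [sub_eq_zero] at h1 h2
  rw [h1, ← h2]

/-- the block idempotent over the local ring -/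
noncomputable def blO (H : Subgroup G) {b : Set (IrrCharacter H)} (hb : IsPBlock M b) :
    GA (locRing hM) G :=
  fun g => ⟨subgroupBlockCoeff H b g, RV_subgroupBlockCoeff hM H hb g⟩

theorem blO_apply (H : Subgroup G) {b : Set (IrrCharacter H)} (hb : IsPBlock M b) (g : G) :
    ((blO hM H hb g : locRing hM) : ℂ) = subgroupBlockCoeff H b g := rfl

theorem redO_blO (H : Subgroup G) {b : Set (IrrCharacter H)} (hb : IsPBlock M b) :
    redO hM (blO hM H hb) = bl hM H b := by
  ext g
  rw [redO_apply]
  show _ = resC hM (subgroupBlockCoeff H b g)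
  rw [resC_of_mem hM (RV_subgroupBlockCoeff hM H hb g)]
  rfl

theorem blO_suppOn (H : Subgroup G) {b : Set (IrrCharacter H)} (hb : IsPBlock M b) :
    SuppOn H (blO hM H hb) := by
  intro g hg
  apply Subtype.ext
  rw [blO_apply, subgroupBlockCoeff_not_mem H b hg]; rfl

theorem blO_idem (H : Subgroup G) {b : Set (IrrCharacter H)} (hb : IsPBlock M b) :
    blO hM H hb * blO hM H hb = blO hM H hb := by
  classical
  haveI : Fintype H := Fintype.ofFinite H
  ext g
  rw [GA.mul_apply, blO_apply]
  push_cast
  simp only [blO_apply]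
  by_cases hg : g ∈ H
  · rw [subgroupBlockCoeff_mem H b hg]
    have h1 := congrFun (conv_blockCoeff_self b) ⟨g, hg⟩
    rw [← h1]
    unfold conv
    rw [sum_eq_sum_subgroup H (fun x => subgroupBlockCoeff H b x * subgroupBlockCoeff H b (x⁻¹ * g))
      (fun x hx => by rw [subgroupBlockCoeff_not_mem H b hx, zero_mul])]
    apply Finset.sum_congr rfl; intro x _
    rw [subgroupBlockCoeff_mem H b x.2, subgroupBlockCoeff_mem H b (H.mul_mem (H.inv_mem x.2) hg)]
    rfl
  · rw [subgroupBlockCoeff_not_mem H b hg]
    apply Finset.sum_eq_zero; intro x _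
    by_cases hx : x ∈ H
    · rw [subgroupBlockCoeff_not_mem H b (g := x⁻¹ * g) (fun h => hg (by
        have := H.mul_mem hx h; rwa [mul_inv_cancel_left] at this)), mul_zero]
    · rw [subgroupBlockCoeff_not_mem H b hx, zero_mul]

/-- a central idempotent of `𝒪H` lifting a block idempotent is the block idempotent -/
theorem eq_blO_of_redO_eq (H : Subgroup G) {b : Set (IrrCharacter H)} (hb : IsPBlock M b)
    {bh : GA (locRing hM) G} (hfix : FixBy H bh) (hidem : bh * bh = bh)
    (hred : redO hM bh = bl hM H b) : bh = blO hM H hb := by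
  apply eq_of_idem_of_redO_eq hM hidem (blO_idem hM H hb)
  · exact (commute_of_suppOn_fixBy (blO_suppOn hM H hb) hfix).symm
  · rw [hred, redO_blO]

/-- evaluation against the block idempotent is the block part -/
theorem ev_of_mul_blO {x : G} {b : Set (IrrCharacter (Cx x))} (hb : IsPBlock M b) {ψ : G → ℂ}
    (hψ : IsClassFunction G ψ) (s : Cx x) :
    ev hM ψ (of (x * (s : G)) * blO hM (Cx x) hb) = Th (Cx x) b x ψ s := by
  classical
  haveI : Fintype (Cx x) := Fintype.ofFinite _
  unfold Th
  rw [blockPart_eq_sum_blockCoeff b (shiftCx_classFunction hψ x) s]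
  unfold ev
  simp only [GA.of_mul_apply, blO_apply]
  rw [← Equiv.sum_comp (Equiv.mulLeft (x * (s : G)))]
  simp only [Equiv.coe_mulLeft, inv_mul_cancel_left]
  rw [sum_eq_sum_subgroup (Cx x) (fun h => subgroupBlockCoeff (Cx x) b h * ψ (x * (s : G) * h))
      (fun h hh => by rw [subgroupBlockCoeff_not_mem _ b hh, zero_mul])]
  apply Finset.sum_congr rfl; intro k _
  rw [subgroupBlockCoeff_mem _ b k.2]
  congr 1
  have h1 := shiftCx_classFunction hψ x (k * s) s
  show ψ (x * (s : G) * (k : G)) = ψ (x * ((k * s : Cx x) : G))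
  have h2 : (fun c : Cx x => ψ (x * (c : G))) (s * (k * s) * s⁻¹) = ψ (x * (s : G) * (k : G)) := by
    show ψ (x * ((s * (k * s) * s⁻¹ : Cx x) : G)) = _
    congr 1
    push_cast
    group
  rw [← h2, h1]

end Cfsg.Agent.Lib.Helper81
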