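import Cfsg.Agent.Lib.Helper81.StarHub
import Cfsg.Agent.Lib.Helper81.StarIrr
import Cfsg.Agent.Lib.Helper80.GANilF
import Cfsg.Agent.Lib.Helper80.GASplitK
import Cfsg.Agent.Lib.Helper82.StarNil

set_option autoImplicit false
set_option linter.unusedSectionVars false
set_option linter.style.haveILetI false
open Cfsg
open scoped ComplexConjugate
open Cfsg.Agent.Lib.Helper20 Cfsg.Agent.Lib.Helper80
open Cfsg.Agent.Lib.Helper80.GA Cfsg.Agent.Lib.Helper5 Cfsg.Agent.Lib.Helper78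
open Cfsg.Agent.Lib.Helper83.Star

/-! Nilpotent blocks: instantiation of the star machinery. -/

namespace Cfsg.Agent.Lib.Helper81

section EtaF

variable {G : Type*} [Group G] [Fintype G]

/-- extension by zero of a function on `P` -/
noncomputable def etaF (P : Subgroup G) (η : P → ℂ) : G → ℂ :=
  fun g => by classical exact if h : g ∈ P then η ⟨g, h⟩ else 0

theorem etaF_mem {P : Subgroup G} (η : P → ℂ) {g : G} (h : g ∈ P) : etaF P η g = η ⟨g, h⟩ := by
  unfold etaF; rw [dif_pos h]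

end EtaF

variable {p : ℕ} [Fact p.Prime] {M : Ideal AlgInt} (hM : IsPModular p M)
  {G : Type*} [Group G] [Fintype G]

/-- fusion in a nilpotent block is controlled by `P` -/
theorem nil_inner {B : Set (IrrCharacter G)} (hnil : IsNilpotentBlock p M B) {P : Subgroup G}
    {e : GA (Kr hM) G} (hmax : IsMaxBP p (blkR hM B) P e) {R : Subgroup G} {f : GA (Kr hM) G}
    {g : G} (h2 : BPLE p (R, f) (P, e)) (h3 : BPLE p (cS g R, cj g f) (P, e)) :
    ∃ d ∈ P, ∀ r ∈ R, g * r * g⁻¹ = d * r * d⁻¹ := by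
  have hB := hnil.1
  have hNil : NilB p (blkR hM B) := (isNilpotentBlock_iff hM hB).1 hnil
  have hinner := (hmax.nilB_iff_inner (fun _ _ hc => split_sub hM hc)).1 hNil
  have hφ : conjHom R g ∈ (bfs hmax.1.1).Hom R := by
    rw [mem_bfs_hom_iff]
    refine ⟨g, f, fun x hx => ?_, h2, h3⟩
    rw [Cfsg.Agent.Lib.Helper87.ext_apply _ hx]
    rfl
  rw [hinner] at hφ
  obtain ⟨_, d, hd, h⟩ := hφ
  exact ⟨d, hd, fun r hr => h ⟨r, hr⟩⟩

theorem nil_stable {B : Set (IrrCharacter G)} (hnil : IsNilpotentBlock p M B) {P : Subgroup G}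
    {e : GA (Kr hM) G} (hmax : IsMaxBP p (blkR hM B) P e) {η : P → ℂ}
    (hη : IsClassFunction P η) : StableOn p P e (etaF P η) := by
  intro R f g h2 h3 r hr
  obtain ⟨d, hd, h⟩ := nil_inner hM hnil hmax h2 h3
  have hrP : r ∈ P := h2.le hr
  rw [h r hr, etaF_mem η hrP, etaF_mem η (P.mul_mem (P.mul_mem hd hrP) (P.inv_mem hd))]
  exact hη ⟨r, hrP⟩ ⟨d, hd⟩

theorem nil_inst (hub : HubStmt hM G) {B : Set (IrrCharacter G)} (hnil : IsNilpotentBlock p M B)
    {P : Subgroup G} (hPD : IsDefectGroup p M B P) :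
    ∃ χ₀ ∈ B, blockHeight p B (χ₀ : G → ℂ) = 0 ∧ ∃ Ψ : IrrCharacter P → IrrCharacter G,
      (∀ ζ, Ψ ζ ∈ B) ∧ Function.Injective Ψ ∧ (∀ χ ∈ B, ∃ ζ, Ψ ζ = χ) ∧
      ∀ ζ : IrrCharacter P, ∀ s : G, IsPRegular p s →
        (Ψ ζ : G → ℂ) s = (ζ : P → ℂ) 1 * (χ₀ : G → ℂ) s := by
  classical
  have hB := hnil.1
  have hdef : IsDef p ⊤ (blkR hM B) P := isDef_of_isDefectGroup hM hB hPD
  obtain ⟨e, hmax⟩ := (isBlk_blkR hM hB).exists_isMaxBP_of_isDef hdef
  obtain ⟨X, hX1, hX2⟩ := exists_pReps (G := G) p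
  have hX : PReps p X := ⟨hX1, hX2⟩
  let U : ∀ x : G, Set (IrrCharacter (Cx x)) → P :=
    fun x b => if h : Upt hM P e x b ∈ P then ⟨Upt hM P e x b, h⟩ else 1
  have hU : ∀ x ∈ X, ∀ b, IsInducedBlock M (Cx x) b B → ((U x b : P) : G) = Upt hM P e x b := by
    intro x hx b hb
    simp only [U, dif_pos (Upt_mem hM hmax (hX.pow x hx) hb)]
  apply Cfsg.Agent.Lib.Helper82.nil_payoff hM hB hX P U
  · intro b
    have h1 : Upt hM P e 1 b ∈ P := by rw [Upt_one]; exact P.one_mem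
    simp only [U, dif_pos h1]
    apply Subtype.ext
    exact Upt_one hM P e b
  · intro x hx b hb h1
    have h2 := hU x hx b hb
    rw [h1] at h2
    have h3 : gam hM P e x b * x * (gam hM P e x b)⁻¹ = 1 := h2.symm
    generalize gam hM P e x b = γ at h3
    have : x = γ⁻¹ * (γ * x * γ⁻¹) * γ := by group
    rw [this, h3]; group
  · intro η hη χ hχ θ hθ
    have hcl := Cfsg.Agent.Lib.Helper32.genChar_isClassFunction hη
    apply star_isGeneralizedCharacter hM hub hB hmax hX (nil_stable hM hnil hmax hcl) _ hχ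
    · apply hθ.congr_ind hM hB hχ hX
      intro x hx b hb
      have h1 := Upt_mem hM hmax (hX.pow x hx) hb
      rw [etaF_mem η h1]
      congr 1
      apply Subtype.ext
      exact hU x hx b hb
    · have : (fun u : P => etaF P η (u : G)) = η := by
        funext u; rw [etaF_mem η u.2]
      rw [this]; exact hη
  · intro u
    obtain ⟨x, hx, b, t, hind, hcar, htx, -⟩ := exists_cover hM hB hmax hX u.2
    refine ⟨x, hx, b, hind, ?_⟩
    have hcarγ := carries_gam hM ⟨t, hcar⟩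
    obtain ⟨d, hd, h⟩ := nil_inner hM hnil hmax (g := gam hM P e x b * t⁻¹) hcar (by
      rw [cS_cS, cj_cj, inv_mul_cancel_right]; exact hcarγ)
    have h1 := h (u : G) (by
      rw [cS_zpowers, htx]; exact Subgroup.mem_zpowers _)
    rw [_root_.isConj_iff]
    refine ⟨⟨d, hd⟩, ?_⟩
    apply Subtype.ext
    rw [hU x hx b hind]
    show d * (u : G) * d⁻¹ = gam hM P e x b * x * (gam hM P e x b)⁻¹
    rw [← h1, ← htx]
    group

end Cfsg.Agent.Lib.Helper81
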