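import Cfsg.Agent.Lib.Helper81.StarAct
import Cfsg.Agent.Lib.Helper81.SubsecVal

set_option autoImplicit false
set_option linter.unusedSectionVars false
set_option linter.style.haveILetI false
open Cfsg
open scoped ComplexConjugate
open Cfsg.Agent.Lib.Helper20 Cfsg.Agent.Lib.Helper80
open Cfsg.Agent.Lib.Helper80.GA Cfsg.Agent.Lib.Helper5 Cfsg.Agent.Lib.Helper78
open Cfsg.Agent.Lib.Helper83.Star

/-! Divisibility of the numbers of characters of given height (from the hub). -/

namespace Cfsg.Agent.Lib.Helper81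

variable {p : ℕ} [Fact p.Prime] {M : Ideal AlgInt} (hM : IsPModular p M)
  {G : Type*} [Group G] [Fintype G]

include hM in
theorem subsecData_Cx {B : Set (IrrCharacter G)} {x : G} (hx : ∃ k : ℕ, orderOf x = p ^ k)
    {b : Set (IrrCharacter (Cx x))} (hind : IsInducedBlock M (Cx x) b B) :
    ∃ n, SubsecData p M (Cx x) x n b B := by
  obtain ⟨n, hn⟩ := hx
  exact ⟨n, hM, hn, self_mem_Cx x, Cx_comm x, le_rfl, hind⟩

theorem height_count_dvd (hub : HubStmt hM G) {B : Set (IrrCharacter G)} {P : Subgroup G}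
    {e : Set (IrrCharacter (Cn P))} {F : FusionSystem P}
    (hF : IsBlockFusionSystemOn p M B P e F) (h : ℕ) :
    ((P ⊓ Subgroup.centralizer (P : Set G) ⊓ F.focalSubgroup).subgroupOf
      (P ⊓ Subgroup.centralizer (P : Set G))).index ∣
      Nat.card {χ : IrrCharacter G // χ ∈ B ∧ blockHeight p B (χ : G → ℂ) = h} := by
  have hB : IsPBlock M B := hF.1.1.2.1
  apply star_count hM hub hF h _ inf_le_left
  intro χ hχ _ z hz x hx b hind hdef
  haveI : Fintype (Cx x) := Fintype.ofFinite _
  obtain ⟨n, D⟩ := subsecData_Cx hM hx hind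
  have hd := hdef (fun d hd => by
    have := Subgroup.mem_centralizer_iff.1 hz.2 d hd
    exact this)
  obtain ⟨χ₀, hχ₀, hmin⟩ := exists_minDeg (p := p) (isPBlock_nonempty hM hB)
  have h0 : blockHeight p B (χ₀ : G → ℂ) = 0 := (blockHeight_eq_zero_iff hχ₀).2 hmin
  obtain ⟨w, _, hw, heq⟩ := major_unit D hd hχ₀ hχ h0
  by_contra hcon
  push Not at hcon
  rw [mS_eq_zero_of_right hcon, mul_zero] at heq
  have hp0 : (p : ℂ) ≠ 0 := by exact_mod_cast (Fact.out : p.Prime).ne_zero
  have hw0 : w = 0 := by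
    rcases mul_eq_zero.1 heq.symm with h | h
    · exact absurd h (pow_ne_zero _ hp0)
    · exact h
  apply hw
  rw [hw0]
  exact memLocalIdeal_zero hM

theorem height_zero_count_dvd (hub : HubStmt hM G) {B : Set (IrrCharacter G)} {P : Subgroup G}
    {e : Set (IrrCharacter (Cn P))} {F : FusionSystem P}
    (hF : IsBlockFusionSystemOn p M B P e F) :
    (F.focalSubgroup.subgroupOf P).index ∣
      Nat.card {χ : IrrCharacter G // χ ∈ B ∧ blockHeight p B (χ : G → ℂ) = 0} := by
  have h1 := star_count hM hub hF 0 P le_rfl (by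
    intro χ hχ h0 z _ x hx b hind _
    haveI : Fintype (Cx x) := Fintype.ofFinite _
    obtain ⟨n, D⟩ := subsecData_Cx hM hx hind
    have h2 := diag_ne_zero_of_height_zero D hχ h0
    by_contra hcon
    push Not at hcon
    rw [mS_eq_zero_of_right hcon, mul_zero] at h2
    exact h2 rfl)
  rwa [inf_eq_right.2 (focal_le F)] at h1

end Cfsg.Agent.Lib.Helper81
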