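import Cfsg.Agent.Lib.Helper81.StarDef
import Cfsg.Agent.Lib.Helper81.MajorExist

set_option autoImplicit false
set_option linter.unusedSectionVars false
set_option linter.style.haveILetI false
open Cfsg
open scoped ComplexConjugate
open Cfsg.Agent.Lib.Helper20 Cfsg.Agent.Lib.Helper80
open Cfsg.Agent.Lib.Helper80.GA Cfsg.Agent.Lib.Helper5 Cfsg.Agent.Lib.Helper78

/-! Fusion side of the star construction: subsections are carried below a maximal Brauer pair. -/

namespace Cfsg.Agent.Lib.Helper81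

variable {p : ℕ} [Fact p.Prime] {M : Ideal AlgInt} (hM : IsPModular p M)
  {G : Type*} [Group G] [Fintype G]

theorem Cx_eq (x : G) : Cx x = Cn (Subgroup.zpowers x) := centralizer_singleton_eq x

/-- `g` carries the subsection `(x, b)` below `(P, e)` -/
def Carries (P : Subgroup G) (e : GA (Kr hM) G) (x : G) (b : Set (IrrCharacter (Cx x))) (g : G) :
    Prop :=
  BPLE p (cS g (Subgroup.zpowers x), cj g (bl hM (Cx x) b)) (P, e)

/-- a chosen conjugator -/
noncomputable def gam (P : Subgroup G) (e : GA (Kr hM) G) (x : G)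
    (b : Set (IrrCharacter (Cx x))) : G := by
  classical exact if h : ∃ g, Carries hM P e x b g then h.choose else 1

/-- the element of `P` attached to the subsection `(x, b)` -/
noncomputable def Upt (P : Subgroup G) (e : GA (Kr hM) G) (x : G)
    (b : Set (IrrCharacter (Cx x))) : G :=
  gam hM P e x b * x * (gam hM P e x b)⁻¹

/-- invariance under the fusion of the Brauer pairs below `(P, e)` -/
def StableOn {k : Type*} [Field k] (p : ℕ) (P : Subgroup G) (e : GA k G) (η : G → ℂ) : Prop :=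
  ∀ (R : Subgroup G) (f : GA k G) (g : G), BPLE p (R, f) (P, e) →
    BPLE p (cS g R, cj g f) (P, e) → ∀ r ∈ R, η (g * r * g⁻¹) = η r

theorem carries_gam {P : Subgroup G} {e : GA (Kr hM) G} {x : G} {b : Set (IrrCharacter (Cx x))}
    (h : ∃ g, Carries hM P e x b g) : Carries hM P e x b (gam hM P e x b) := by
  unfold gam
  rw [dif_pos h]
  exact h.choose_spec

theorem Upt_one (P : Subgroup G) (e : GA (Kr hM) G) (b : Set (IrrCharacter (Cx (1 : G)))) :
    Upt hM P e 1 b = 1 := by
  unfold Upt; group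

theorem Carries.mem {P : Subgroup G} {e : GA (Kr hM) G} {x : G} {b : Set (IrrCharacter (Cx x))}
    {g : G} (h : Carries hM P e x b g) : g * x * g⁻¹ ∈ P := by
  apply BPLE.le h
  show g * x * g⁻¹ ∈ cS g (Subgroup.zpowers x)
  rw [cS_zpowers]
  exact Subgroup.mem_zpowers _

theorem exists_carries {B : Set (IrrCharacter G)} {P : Subgroup G} {e : GA (Kr hM) G}
    (hmax : IsMaxBP p (blkR hM B) P e) {x : G} (hx : ∃ k : ℕ, orderOf x = p ^ k)
    {b : Set (IrrCharacter (Cx x))} (hind : IsInducedBlock M (Cx x) b B) :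
    ∃ g, Carries hM P e x b g := by
  have h1 := (isInducedBlock_centralizer_iff hM hx hind.1 hind.2.1).1 hind
  have hblk : IsBlk (Cn (Subgroup.zpowers x)) (bl hM (Cx x) b) := by
    rw [← Cx_eq]; exact isBlk_bl hM _ hind.1
  have hbp : IsBPOf p (blkR hM B) (Subgroup.zpowers x) (bl hM (Cx x) b) :=
    ⟨⟨isPGroup_zpowers_of_orderOf hx, hblk⟩, hmax.1.2.1, h1⟩
  exact hmax.exists_conj_le hbp

theorem Upt_mem {B : Set (IrrCharacter G)} {P : Subgroup G} {e : GA (Kr hM) G}
    (hmax : IsMaxBP p (blkR hM B) P e) {x : G} (hx : ∃ k : ℕ, orderOf x = p ^ k)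
    {b : Set (IrrCharacter (Cx x))} (hind : IsInducedBlock M (Cx x) b B) :
    Upt hM P e x b ∈ P :=
  (carries_gam hM (exists_carries hM hmax hx hind)).mem

/-- stable functions do not depend on the conjugator -/
theorem StableOn.eq_of_carries {P : Subgroup G} {e : GA (Kr hM) G} {η : G → ℂ}
    (hη : StableOn p P e η) {x : G} {b : Set (IrrCharacter (Cx x))} {g g' : G}
    (h : Carries hM P e x b g) (h' : Carries hM P e x b g') :
    η (g * x * g⁻¹) = η (g' * x * g'⁻¹) := by
  have h1 := hη (cS g (Subgroup.zpowers x)) (cj g (bl hM (Cx x) b)) (g' * g⁻¹) h (by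
    rw [cS_cS, cj_cj, inv_mul_cancel_right]; exact h') (g * x * g⁻¹) (by
      rw [cS_zpowers]; exact Subgroup.mem_zpowers _)
  rw [← h1]
  congr 1
  group

theorem StableOn.Upt_eq {P : Subgroup G} {e : GA (Kr hM) G} {η : G → ℂ}
    (hη : StableOn p P e η) {x : G} {b : Set (IrrCharacter (Cx x))} {g : G}
    (h : Carries hM P e x b g) : η (Upt hM P e x b) = η (g * x * g⁻¹) :=
  hη.eq_of_carries hM (carries_gam hM ⟨g, h⟩) h

/-- every element of `P` is covered by a subsection at a representative -/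
theorem exists_cover {B : Set (IrrCharacter G)} (hB : IsPBlock M B) {P : Subgroup G}
    {e : GA (Kr hM) G} (hmax : IsMaxBP p (blkR hM B) P e) {X : Finset G} (hX : PReps p X) {u : G}
    (hu : u ∈ P) :
    ∃ x ∈ X, ∃ b : Set (IrrCharacter (Cx x)), ∃ t : G, IsInducedBlock M (Cx x) b B ∧
      Carries hM P e x b t ∧ t * x * t⁻¹ = u ∧
      ((∀ d ∈ P, d * u = u * d) → blockDefect p b = blockDefect p B) := by
  have he : IsBP p P e := hmax.1.1
  obtain ⟨f, hf, hle⟩ := he.exists_subpair' (Q := Subgroup.zpowers u)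
    (by rw [Subgroup.zpowers_le]; exact hu)
  have hbp : IsBPOf p (blkR hM B) (Subgroup.zpowers u) f := (hle.isBPOf_iff).1 hmax.1
  have hup : ∃ k : ℕ, orderOf u = p ^ k := by
    obtain ⟨k, hk⟩ := he.1 ⟨u, hu⟩
    have h1 : u ^ (p ^ k) = 1 := by simpa using congrArg Subtype.val hk
    obtain ⟨m, _, hm⟩ := (Nat.dvd_prime_pow Fact.out).1 (orderOf_dvd_of_pow_eq_one h1)
    exact ⟨m, hm⟩
  obtain ⟨x, ⟨hx, hc⟩, -⟩ := hX.rep u hup
  obtain ⟨t, ht⟩ := isConj_iff.1 hc
  have hbp' := hbp.cj t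
  rw [cS_zpowers, ht] at hbp'
  have hblk : IsBlk (Cx x) (cj t f) := by
    rw [Cx_eq]; exact hbp'.1.2
  obtain ⟨b, hb, hbeq⟩ := exists_block_of_isBlk_sub hM _ hblk
  have hind : IsInducedBlock M (Cx x) b B := by
    rw [isInducedBlock_centralizer_iff hM (hX.pow x hx) hb hB, ← hbeq]
    exact hbp'.2.2
  have hxu : t⁻¹ * x * t⁻¹⁻¹ = u := by rw [← ht]; group
  refine ⟨x, hx, b, t⁻¹, hind, ?_, hxu, ?_⟩
  · unfold Carries
    rw [cS_zpowers, hxu, ← hbeq, cj_inv_cj]
    exact hle
  · intro huc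
    have hPle : P ≤ Cn (Subgroup.zpowers u) := le_Cn_zpowers huc
    have hdef := (isDef_Cn_of_le_Cn hmax hle hPle).cj t
    rw [cS_Cn, cS_zpowers, ht, ← Cx_eq, hbeq] at hdef
    have hβD := isDefectGroup_of_isDef_sub hM _ hb hdef
    have hPD : IsDefectGroup p M B P := isDefectGroup_of_isDef hM hB hmax.isDef
    haveI : Fintype (Cx x) := Fintype.ofFinite _
    have h1 := Cfsg.Agent.Lib.Helper21.card_defectGroup hM B hB P hPD
    have h2 := Cfsg.Agent.Lib.Helper21.card_defectGroup hM b hb _ hβD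
    have h3 : Nat.card ((cS t P).subgroupOf (Cx x)) = Nat.card P := by
      rw [Nat.card_congr (Subgroup.subgroupOfEquivOfLe hdef.le).toEquiv]
      exact Subgroup.card_map_of_injective (MulAut.conj t).injective
    rw [h3, h1] at h2
    exact (Nat.pow_right_injective (Fact.out : p.Prime).two_le h2).symm

end Cfsg.Agent.Lib.Helper81
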